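import Mathlib

set_option autoImplicit false
set_option linter.unusedSectionVars false
set_option linter.unusedSimpArgs false

/-!
Linear maps on two by two matrices preserving the determinant up to a scalar.
-/

namespace Cfsg.Agent.TwoGrp

open scoped Matrix MatrixGroups

variable {F : Type*} [Field F]

theorem mat2_expand (X : Matrix (Fin 2) (Fin 2) F) :
    X = X 0 0 • !![1, 0; 0, 0] + X 0 1 • !![0, 1; 0, 0] + X 1 0 • !![0, 0; 1, 0] + X 1 1 • (1 - !![1, 0; 0, 0]) := by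
  ext i j
  fin_cases i <;> fin_cases j <;> simp

theorem det_one_sub (X : Matrix (Fin 2) (Fin 2) F) : (1 - X).det = 1 - (X 0 0 + X 1 1) + X.det := by
  rw [Matrix.det_fin_two, Matrix.det_fin_two]
  simp
  ring

/-- the normalised case -/
theorem det_pres_norm {θ : Matrix (Fin 2) (Fin 2) F →ₗ[F] Matrix (Fin 2) (Fin 2) F}
    (h1 : θ 1 = 1) (hd : ∀ X, (θ X).det = X.det) (hE : θ !![1, 0; 0, 0] = !![1, 0; 0, 0]) :
    ∃ A B : GL (Fin 2) F, (∀ X, θ X = (A : Matrix (Fin 2) (Fin 2) F) * X * (B : Matrix (Fin 2) (Fin 2) F)) ∨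
      (∀ X, θ X = (A : Matrix (Fin 2) (Fin 2) F) * Xᵀ * (B : Matrix (Fin 2) (Fin 2) F)) := by
  have htr : ∀ X, θ X 0 0 + θ X 1 1 = X 0 0 + X 1 1 := by
    intro X
    have e1 := hd (1 - X)
    rw [map_sub, h1, det_one_sub, det_one_sub, hd] at e1
    linear_combination -e1
  set N := θ !![0, 1; 0, 0] with hN
  set M := θ !![0, 0; 1, 0] with hM
  have t1 := htr !![0, 1; 0, 0]
  have t2 := htr !![0, 0; 1, 0]
  have d1 := hd !![0, 1; 0, 0]
  have d2 := hd !![0, 0; 1, 0]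
  have d3 := hd (!![1, 0; 0, 0] + !![0, 1; 0, 0])
  have d4 := hd (!![1, 0; 0, 0] + !![0, 0; 1, 0])
  have d5 := hd (!![0, 1; 0, 0] + !![0, 0; 1, 0])
  rw [map_add, hE, ← hN, Matrix.det_fin_two, Matrix.det_fin_two] at d3
  rw [map_add, hE, ← hM, Matrix.det_fin_two, Matrix.det_fin_two] at d4
  rw [map_add, ← hM, ← hN, Matrix.det_fin_two, Matrix.det_fin_two] at d5
  rw [← hN, Matrix.det_fin_two, Matrix.det_fin_two] at d1
  rw [← hM, Matrix.det_fin_two, Matrix.det_fin_two] at d2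
  rw [← hN] at t1
  rw [← hM] at t2
  obtain ⟨n0, hn0⟩ : ∃ a, N 0 0 = a := ⟨_, rfl⟩
  obtain ⟨n1, hn1⟩ : ∃ a, N 0 1 = a := ⟨_, rfl⟩
  obtain ⟨n2, hn2⟩ : ∃ a, N 1 0 = a := ⟨_, rfl⟩
  obtain ⟨n3, hn3⟩ : ∃ a, N 1 1 = a := ⟨_, rfl⟩
  obtain ⟨m0, hm0⟩ : ∃ a, M 0 0 = a := ⟨_, rfl⟩
  obtain ⟨m1, hm1⟩ : ∃ a, M 0 1 = a := ⟨_, rfl⟩
  obtain ⟨m2, hm2⟩ : ∃ a, M 1 0 = a := ⟨_, rfl⟩
  obtain ⟨m3, hm3⟩ : ∃ a, M 1 1 = a := ⟨_, rfl⟩
  simp [hn0, hn1, hn2, hn3, hm0, hm1, hm2, hm3] at t1 t2 d1 d2 d3 d4 d5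
  have hn30 : n3 = 0 := by linear_combination d3 - d1
  have hm30 : m3 = 0 := by linear_combination d4 - d2
  rw [hn30, add_zero] at t1
  rw [hm30, add_zero] at t2
  subst hn30 hm30 t1 t2
  have hθ : ∀ X, θ X = !![X 0 0, X 0 1 * n1 + X 1 0 * m1; X 0 1 * n2 + X 1 0 * m2, X 1 1] := by
    intro X
    conv_lhs => rw [mat2_expand X]
    rw [map_add, map_add, map_add, map_smul, map_smul, map_smul, map_smul, map_sub, h1, hE, ← hM, ← hN]
    ext i j
    fin_cases i <;> fin_cases j <;> simp [hn0, hn1, hn2, hn3, hm0, hm1, hm2, hm3]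
  by_cases h0 : n1 = 0
  · have e1 : m1 * n2 = 1 := by
      rw [h0] at d5
      have : m2 * m1 = 0 := by linear_combination -d2
      linear_combination -d5 - this
    have hm1 : m1 ≠ 0 := left_ne_zero_of_mul_eq_one e1
    have hn2 : n2 ≠ 0 := right_ne_zero_of_mul_eq_one e1
    have hm2' : m2 = 0 := by
      have : m2 * m1 = 0 := by linear_combination -d2
      exact (mul_eq_zero.1 this).resolve_right hm1
    refine ⟨⟨!![1, 0; 0, n2], !![1, 0; 0, m1], ?_, ?_⟩, ⟨!![1, 0; 0, m1], !![1, 0; 0, n2], ?_, ?_⟩, Or.inr fun X => ?_⟩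
    · ext i j
      fin_cases i <;> fin_cases j <;> simp [e1, mul_comm n2]
    · ext i j
      fin_cases i <;> fin_cases j <;> simp [e1, mul_comm n2]
    · ext i j
      fin_cases i <;> fin_cases j <;> simp [e1, mul_comm n2]
    · ext i j
      fin_cases i <;> fin_cases j <;> simp [e1, mul_comm n2]
    · rw [hθ, h0, hm2']
      obtain ⟨a, b, c, d, rfl⟩ : ∃ a b c d, X = !![a, b; c, d] := ⟨_, _, _, _, Matrix.eta_fin_two X⟩
      have hT : (!![a, b; c, d] : Matrix (Fin 2) (Fin 2) F)ᵀ = !![a, c; b, d] := by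
        ext i j
        fin_cases i <;> fin_cases j <;> rfl
      rw [hT]
      ext i j
      fin_cases i <;> fin_cases j <;> simp
      · ring
      · linear_combination -d * e1
  · have hn2' : n2 = 0 := by
      have : n1 * n2 = 0 := by linear_combination -d1
      exact (mul_eq_zero.1 this).resolve_left h0
    have e1 : n1 * m2 = 1 := by
      rw [hn2'] at d5
      have : m2 * m1 = 0 := by linear_combination -d2
      linear_combination -d5 - this
    refine ⟨⟨!![n1, 0; 0, 1], !![m2, 0; 0, 1], ?_, ?_⟩, ⟨!![m2, 0; 0, 1], !![n1, 0; 0, 1], ?_, ?_⟩, Or.inl fun X => ?_⟩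
    · ext i j
      fin_cases i <;> fin_cases j <;> simp [e1, mul_comm m2]
    · ext i j
      fin_cases i <;> fin_cases j <;> simp [e1, mul_comm m2]
    · ext i j
      fin_cases i <;> fin_cases j <;> simp [e1, mul_comm m2]
    · ext i j
      fin_cases i <;> fin_cases j <;> simp [e1, mul_comm m2]
    · have hm1' : m1 = 0 := by
        have : m2 * m1 = 0 := by linear_combination -d2
        exact (mul_eq_zero.1 this).resolve_left (right_ne_zero_of_mul_eq_one e1)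
      rw [hθ, hn2', hm1']
      obtain ⟨a, b, c, d, rfl⟩ : ∃ a b c d, X = !![a, b; c, d] := ⟨_, _, _, _, Matrix.eta_fin_two X⟩
      ext i j
      fin_cases i <;> fin_cases j <;> simp
      · linear_combination -a * e1
      · ring

/-- **linear maps multiplying the determinant by a non-zero constant** -/
theorem det_pres {φ : Matrix (Fin 2) (Fin 2) F →ₗ[F] Matrix (Fin 2) (Fin 2) F} {μ : F} (hμ : μ ≠ 0)
    (h : ∀ X, (φ X).det = μ * X.det) :
    ∃ A B : GL (Fin 2) F, (∀ X, φ X = (A : Matrix (Fin 2) (Fin 2) F) * X * (B : Matrix (Fin 2) (Fin 2) F)) ∨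
      (∀ X, φ X = (A : Matrix (Fin 2) (Fin 2) F) * Xᵀ * (B : Matrix (Fin 2) (Fin 2) F)) := by
  -- normalise at the identity
  have hN : (φ 1).det ≠ 0 := by
    rw [h, Matrix.det_one, mul_one]; exact hμ
  set N : GL (Fin 2) F := Matrix.GeneralLinearGroup.mkOfDetNeZero (φ 1) hN with hNd
  have hNv : (N : Matrix (Fin 2) (Fin 2) F) = φ 1 := rfl
  have hNN : ((N⁻¹ : GL (Fin 2) F) : Matrix (Fin 2) (Fin 2) F) * φ 1 = 1 := by
    rw [← hNv, ← Units.val_mul, inv_mul_cancel, Units.val_one]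
  have hNdet : ((N⁻¹ : GL (Fin 2) F) : Matrix (Fin 2) (Fin 2) F).det * μ = 1 := by
    have := congrArg Matrix.det hNN
    rw [Matrix.det_mul, h, Matrix.det_one, mul_one] at this
    exact this
  set ψ : Matrix (Fin 2) (Fin 2) F →ₗ[F] Matrix (Fin 2) (Fin 2) F :=
    (LinearMap.mulLeft F ((N⁻¹ : GL (Fin 2) F) : Matrix (Fin 2) (Fin 2) F)) ∘ₗ φ with hψ
  have hψ1 : ψ 1 = 1 := hNN
  have hψd : ∀ X, (ψ X).det = X.det := by
    intro X
    show (((N⁻¹ : GL (Fin 2) F) : Matrix (Fin 2) (Fin 2) F) * φ X).det = _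
    rw [Matrix.det_mul, h, ← mul_assoc, hNdet, one_mul]
  -- normalise at the idempotent
  obtain ⟨C, hC⟩ : ∃ C : GL (Fin 2) F, ψ !![1, 0; 0, 0] * (C : Matrix (Fin 2) (Fin 2) F) =
      (C : Matrix (Fin 2) (Fin 2) F) * !![1, 0; 0, 0] := by
    set P := ψ !![1, 0; 0, 0] with hP
    have t0 : P 0 0 + P 1 1 = 1 := by
      have e1 := hψd (1 - !![1, 0; 0, 0])
      rw [map_sub, hψ1, det_one_sub, det_one_sub, hψd] at e1
      simp at e1
      linear_combination -e1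
    have d0 : P.det = 0 := by
      rw [hP, hψd]; simp
    rw [Matrix.det_fin_two] at d0
    obtain ⟨a, ha⟩ : ∃ a, P 0 0 = a := ⟨_, rfl⟩
    obtain ⟨b, hb⟩ : ∃ a, P 0 1 = a := ⟨_, rfl⟩
    obtain ⟨c, hc⟩ : ∃ a, P 1 0 = a := ⟨_, rfl⟩
    obtain ⟨d, hd⟩ : ∃ a, P 1 1 = a := ⟨_, rfl⟩
    rw [ha, hd] at t0
    rw [ha, hb, hc, hd] at d0
    have hd' : d = 1 - a := by linear_combination t0
    subst hd'
    by_cases ha0 : a = 0
    · subst ha0
      refine ⟨Matrix.GeneralLinearGroup.mkOfDetNeZero !![b, 1; 1, -c] ?_, ?_⟩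
      · rw [Matrix.det_fin_two_of]
        intro h0
        have : (1 : F) = 0 := by linear_combination -h0 + d0
        exact one_ne_zero this
      · show P * !![b, 1; 1, -c] = !![b, 1; 1, -c] * !![1, 0; 0, 0]
        ext i j
        fin_cases i <;> fin_cases j <;> simp [Matrix.mul_apply, Fin.sum_univ_two, ha, hb, hc, hd]
        all_goals first | exact mul_eq_zero.1 (by linear_combination -d0) | linear_combination d0 | linear_combination -d0
    · refine ⟨Matrix.GeneralLinearGroup.mkOfDetNeZero !![a, -b; c, a] ?_, ?_⟩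
      · rw [Matrix.det_fin_two_of]
        intro h0
        apply ha0
        linear_combination h0 + d0
      · show P * !![a, -b; c, a] = !![a, -b; c, a] * !![1, 0; 0, 0]
        ext i j
        fin_cases i <;> fin_cases j <;> simp [Matrix.mul_apply, Fin.sum_univ_two, ha, hb, hc, hd]
        all_goals first | (linear_combination d0; done) | (linear_combination -d0; done) | (ring; done)
  have hCC : ((C⁻¹ : GL (Fin 2) F) : Matrix (Fin 2) (Fin 2) F) * (C : Matrix (Fin 2) (Fin 2) F) = 1 := by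
    rw [← Units.val_mul, inv_mul_cancel, Units.val_one]
  have hCC' : (C : Matrix (Fin 2) (Fin 2) F) * ((C⁻¹ : GL (Fin 2) F) : Matrix (Fin 2) (Fin 2) F) = 1 := by
    rw [← Units.val_mul, mul_inv_cancel, Units.val_one]
  set θ : Matrix (Fin 2) (Fin 2) F →ₗ[F] Matrix (Fin 2) (Fin 2) F :=
    (LinearMap.mulLeft F ((C⁻¹ : GL (Fin 2) F) : Matrix (Fin 2) (Fin 2) F)) ∘ₗ
      (LinearMap.mulRight F (C : Matrix (Fin 2) (Fin 2) F)) ∘ₗ ψ with hθ
  have hθa : ∀ X, θ X = ((C⁻¹ : GL (Fin 2) F) : Matrix (Fin 2) (Fin 2) F) * (ψ X * (C : Matrix (Fin 2) (Fin 2) F)) := fun X => rfl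
  obtain ⟨A, B, hAB⟩ := det_pres_norm (θ := θ) (by rw [hθa, hψ1, one_mul, hCC]) (fun X => by
      rw [hθa, Matrix.det_mul, Matrix.det_mul, hψd]
      have : ((C⁻¹ : GL (Fin 2) F) : Matrix (Fin 2) (Fin 2) F).det * (C : Matrix (Fin 2) (Fin 2) F).det = 1 := by
        rw [← Matrix.det_mul, hCC, Matrix.det_one]
      linear_combination X.det * this) (by rw [hθa, hC, ← mul_assoc, hCC, one_mul])
  have hφ : ∀ X, φ X = (N : Matrix (Fin 2) (Fin 2) F) * (C : Matrix (Fin 2) (Fin 2) F) * θ X *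
      ((C⁻¹ : GL (Fin 2) F) : Matrix (Fin 2) (Fin 2) F) := by
    intro X
    rw [hθa]
    have e1 : ψ X = ((N⁻¹ : GL (Fin 2) F) : Matrix (Fin 2) (Fin 2) F) * φ X := rfl
    have e2 : (N : Matrix (Fin 2) (Fin 2) F) * ((N⁻¹ : GL (Fin 2) F) : Matrix (Fin 2) (Fin 2) F) = 1 := by
      rw [← Units.val_mul, mul_inv_cancel, Units.val_one]
    calc φ X = ((N : Matrix (Fin 2) (Fin 2) F) * ((N⁻¹ : GL (Fin 2) F) : Matrix (Fin 2) (Fin 2) F)) * φ X := by rw [e2, one_mul]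
      _ = (N : Matrix (Fin 2) (Fin 2) F) * ψ X := by rw [e1, mul_assoc]
      _ = (N : Matrix (Fin 2) (Fin 2) F) * (((C : Matrix (Fin 2) (Fin 2) F) * ((C⁻¹ : GL (Fin 2) F) : Matrix (Fin 2) (Fin 2) F)) *
          ψ X * ((C : Matrix (Fin 2) (Fin 2) F) * ((C⁻¹ : GL (Fin 2) F) : Matrix (Fin 2) (Fin 2) F))) := by
          rw [hCC', one_mul, mul_one]
      _ = _ := by simp only [mul_assoc]
  refine ⟨N * C * A, B * C⁻¹, ?_⟩
  rcases hAB with hAB | hAB
  · left
    intro X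
    rw [hφ, hAB, Units.val_mul, Units.val_mul, Units.val_mul]
    simp only [mul_assoc]
  · right
    intro X
    rw [hφ, hAB, Units.val_mul, Units.val_mul, Units.val_mul]
    simp only [mul_assoc]

end Cfsg.Agent.TwoGrp
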