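import Mathlib
import Cfsg.Agent.Asch.SymplForms

set_option autoImplicit false
set_option linter.unusedSectionVars false

/-!
Spanning groups of matrices whose commutators and squares are `±1`: criterion for symplectic type, Kronecker products.
-/

namespace Cfsg.Agent.TwoGrp

open Module Cfsg.Geo Cfsg.Agent.Asch Cfsg.Agent.Asch.Sympl
open scoped Matrix MatrixGroups Kronecker

variable {ι κ κ₁ κ₂ : Type} [Fintype ι] [DecidableEq ι] [Fintype κ] [DecidableEq κ] [Fintype κ₁] [DecidableEq κ₁]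
  [Fintype κ₂] [DecidableEq κ₂] {F : Type*} [Field F]

/-- a spanning group with commutators and squares `±1` -/
structure EGrp (N : Subgroup (GL κ F)) : Prop where
  span : Submodule.span F (matrixSet N) = ⊤
  comm : ∀ x ∈ N, ∀ y ∈ N, x * y = y * x ∨ x * y = -(y * x)
  sq : ∀ x ∈ N, x * x = 1 ∨ x * x = -1
  neg : (-1 : GL κ F) ∈ N

theorem sc_neg_one : sc ι F (-1) = (-1 : GL ι F) := by
  apply Units.ext
  rw [sc_val]
  simp

theorem neg_one_mem_scalars : (-1 : GL ι F) ∈ scalars ι F := by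
  rw [← sc_neg_one]; exact sc_mem _

theorem spanAlg_top {N : Subgroup (GL ι F)} (h : Submodule.span F (matrixSet N) = ⊤) : spanAlg N = ⊤ := by
  rw [eq_top_iff]
  intro T _
  have h1 : LinearMap.toMatrix' T ∈ Submodule.span F (matrixSet N) := by rw [h]; trivial
  have h2 : Matrix.toLin' (LinearMap.toMatrix' T) ∈ spanAlg N := by
    generalize LinearMap.toMatrix' T = A at h1
    induction h1 using Submodule.span_induction with
    | mem x hx =>
      obtain ⟨g, hg, rfl⟩ := hx
      exact toLin'_mem_spanAlg hg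
    | zero => rw [map_zero]; exact Subalgebra.zero_mem _
    | add x y _ _ hx hy => rw [map_add]; exact Subalgebra.add_mem _ hx hy
    | smul c x _ hx => rw [map_smul]; exact Subalgebra.smul_mem _ hx c
  rwa [Matrix.toLin'_toMatrix'] at h2

theorem EGrp.symplData {N : Subgroup (GL ι F)} (h : EGrp N) : SymplData N where
  span := spanAlg_top h.span
  comm x hx y hy := by
    rcases h.comm x hx y hy with h1 | h1
    · rw [h1]
      have : y * x * x⁻¹ * y⁻¹ = 1 := by group
      rw [this]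
      exact Subgroup.one_mem _
    · rw [h1]
      have : -(y * x) * x⁻¹ * y⁻¹ = -1 := by
        rw [neg_mul, neg_mul]
        congr 1
        group
      rw [this]
      exact neg_one_mem_scalars

/-- the data of an isometric group -/
theorem EGrp.isoData {N : Subgroup (GL ι F)} (h : EGrp N) (h2 : (2 : F) ≠ 0) [Nonempty ι]
    {f : (ι → F) → (ι → F) → F} (hf : IsSymplecticForm f) (hfix : FixesForm (matrixSet N) f) :
    IsoData N (gramMatrix f) (-1) := by
  refine ⟨h.symplData, h2, ?_, ?_, Or.inr rfl, ?_, ?_, ?_, ?_⟩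
  · intro g hg c hc
    obtain ⟨i⟩ := (inferInstance : Nonempty ι)
    obtain ⟨-, x, hx⟩ := hf.nondegenerate (Pi.single i 1) (by
      intro h0
      have := congrFun h0 i
      simp at this)
    have h1 := hfix _ ⟨g, hg, rfl⟩ (Pi.single i 1) x
    simp only [hc, Matrix.smul_mulVec, Matrix.one_mulVec] at h1
    rw [hf.bilinear.smul_left, hf.bilinear.smul_right] at h1
    have h2 : (c * c - 1) * f (Pi.single i 1) x = 0 := by linear_combination h1
    rcases mul_eq_zero.1 h2 with h3 | h3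
    · exact mul_self_eq_one_iff.1 (sub_eq_zero.1 h3)
    · exact absurd h3 hx
  · intro g hg
    rcases h.sq g hg with h1 | h1
    · refine ⟨1, ?_⟩
      rw [← Units.val_mul, h1]; simp
    · refine ⟨-1, ?_⟩
      rw [← Units.val_mul, h1]; simp
  · exact (isSesq_of_bilinear hf.bilinear).gram_det_ne_zero (fun v hv => (hf.nondegenerate v hv).2)
  · ext i j
    rw [Matrix.transpose_apply, Matrix.smul_apply, smul_eq_mul]
    show f _ _ = ((-1 : ℤ) : F) * f _ _
    rw [hf.skew]
    push_cast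
    ring
  · intro g hg
    exact gram_iso (isSesq_of_bilinear hf.bilinear) (hfix _ ⟨g, hg, rfl⟩)
  · rw [sc_neg_one]; exact h.neg

/-- every noncentral element anticommutes with an element of order four -/
theorem rich {G : Type*} [Group G] [HasDistribNeg G] {N : Subgroup G}
    (hc : ∀ x ∈ N, ∀ y ∈ N, x * y = y * x ∨ x * y = -(y * x))
    (hs : ∀ x ∈ N, x * x = 1 ∨ x * x = -1) {q₁ q₂ : G} (h₁ : q₁ ∈ N) (h₂ : q₂ ∈ N) (hq₁ : q₁ * q₁ = -1) (hq₂ : q₂ * q₂ = -1)
    (h₁₂ : q₁ * q₂ = -(q₂ * q₁)) {x y : G} (hx : x ∈ N) (hy : y ∈ N) (hxy : x * y = -(y * x)) :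
    ∃ w ∈ N, w * w = -1 ∧ x * w = -(w * x) := by
  rcases hc x hx q₁ h₁ with c1 | c1
  swap
  · exact ⟨q₁, h₁, hq₁, c1⟩
  rcases hc x hx q₂ h₂ with c2 | c2
  swap
  · exact ⟨q₂, h₂, hq₂, c2⟩
  rcases hs y hy with s | s
  swap
  · exact ⟨y, hy, s, hxy⟩
  rcases hc y hy q₁ h₁ with d1 | d1
  · refine ⟨y * q₁, N.mul_mem hy h₁, ?_, ?_⟩
    · calc y * q₁ * (y * q₁) = y * (q₁ * y) * q₁ := by group
        _ = y * (y * q₁) * q₁ := by rw [d1]
        _ = (y * y) * (q₁ * q₁) := by group
        _ = -1 := by rw [s, hq₁, one_mul]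
    · calc x * (y * q₁) = (x * y) * q₁ := by group
        _ = -(y * (x * q₁)) := by rw [hxy, neg_mul, mul_assoc]
        _ = -(y * q₁ * x) := by rw [c1, mul_assoc]
  rcases hc y hy q₂ h₂ with d2 | d2
  · refine ⟨y * q₂, N.mul_mem hy h₂, ?_, ?_⟩
    · calc y * q₂ * (y * q₂) = y * (q₂ * y) * q₂ := by group
        _ = y * (y * q₂) * q₂ := by rw [d2]
        _ = (y * y) * (q₂ * q₂) := by group
        _ = -1 := by rw [s, hq₂, one_mul]
    · calc x * (y * q₂) = (x * y) * q₂ := by group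
        _ = -(y * (x * q₂)) := by rw [hxy, neg_mul, mul_assoc]
        _ = -(y * q₂ * x) := by rw [c2, mul_assoc]
  · refine ⟨y * (q₁ * q₂), N.mul_mem hy (N.mul_mem h₁ h₂), ?_, ?_⟩
    · have e1 : q₁ * q₂ * y = y * (q₁ * q₂) := by
        have f1 : q₂ * y = -(y * q₂) := by rw [d2, neg_neg]
        have f2 : q₁ * y = -(y * q₁) := by rw [d1, neg_neg]
        calc q₁ * q₂ * y = q₁ * (q₂ * y) := by group
          _ = -(q₁ * y * q₂) := by rw [f1, mul_neg, mul_assoc]
          _ = y * (q₁ * q₂) := by rw [f2, neg_mul, neg_neg, mul_assoc]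
      have e2 : (q₁ * q₂) * (q₁ * q₂) = -1 := by
        have f1 : q₂ * q₁ = -(q₁ * q₂) := by rw [h₁₂, neg_neg]
        calc (q₁ * q₂) * (q₁ * q₂) = q₁ * (q₂ * q₁) * q₂ := by group
          _ = -((q₁ * q₁) * (q₂ * q₂)) := by rw [f1, mul_neg, neg_mul]; congr 1; group
          _ = -1 := by rw [hq₁, hq₂, neg_mul_neg, one_mul]
      calc y * (q₁ * q₂) * (y * (q₁ * q₂)) = y * (q₁ * q₂ * y) * (q₁ * q₂) := by group
        _ = (y * y) * ((q₁ * q₂) * (q₁ * q₂)) := by rw [e1]; group
        _ = -1 := by rw [s, e2, one_mul]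
    · calc x * (y * (q₁ * q₂)) = (x * y) * q₁ * q₂ := by group
        _ = -(y * (x * q₁) * q₂) := by rw [hxy, neg_mul, neg_mul]; congr 1; group
        _ = -(y * q₁ * (x * q₂)) := by rw [c1]; congr 1; group
        _ = -(y * (q₁ * q₂) * x) := by rw [c2]; congr 1; group

/-- the matrix `1 + w` for `w² = -1` -/
noncomputable def onePlus (h2 : (2 : F) ≠ 0) (w : GL ι F) (hw : w * w = -1) : GL ι F where
  val := 1 + (w : Matrix ι ι F)
  inv := (2 : F)⁻¹ • (1 - (w : Matrix ι ι F))
  val_inv := by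
    have hw' : (w : Matrix ι ι F) * (w : Matrix ι ι F) = -1 := by rw [← Units.val_mul, hw]; simp
    rw [Matrix.mul_smul]
    have : (1 + (w : Matrix ι ι F)) * (1 - (w : Matrix ι ι F)) = (2 : F) • (1 : Matrix ι ι F) := by
      have e : (1 + (w : Matrix ι ι F)) * (1 - (w : Matrix ι ι F)) = 1 - (w : Matrix ι ι F) * (w : Matrix ι ι F) := by
        noncomm_ring
      rw [e, hw', sub_neg_eq_add, one_add_one_eq_two]
      ext i j
      rw [Matrix.smul_apply, smul_eq_mul, ← one_add_one_eq_two, ← one_add_one_eq_two, Matrix.add_apply]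
      ring
    rw [this, smul_smul, inv_mul_cancel₀ h2, one_smul]
  inv_val := by
    have hw' : (w : Matrix ι ι F) * (w : Matrix ι ι F) = -1 := by rw [← Units.val_mul, hw]; simp
    rw [Matrix.smul_mul]
    have : (1 - (w : Matrix ι ι F)) * (1 + (w : Matrix ι ι F)) = (2 : F) • (1 : Matrix ι ι F) := by
      have e : (1 - (w : Matrix ι ι F)) * (1 + (w : Matrix ι ι F)) = 1 - (w : Matrix ι ι F) * (w : Matrix ι ι F) := by
        noncomm_ring
      rw [e, hw', sub_neg_eq_add, one_add_one_eq_two]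
      ext i j
      rw [Matrix.smul_apply, smul_eq_mul, ← one_add_one_eq_two, ← one_add_one_eq_two, Matrix.add_apply]
      ring
    rw [this, smul_smul, inv_mul_cancel₀ h2, one_smul]

theorem onePlus_conj_comm (h2 : (2 : F) ≠ 0) {w : GL ι F} (hw : w * w = -1) {x : GL ι F} (hx : x * w = w * x) :
    onePlus h2 w hw * x * (onePlus h2 w hw)⁻¹ = x := by
  rw [mul_inv_eq_iff_eq_mul]
  apply Units.ext
  have hx' : (x : Matrix ι ι F) * (w : Matrix ι ι F) = (w : Matrix ι ι F) * (x : Matrix ι ι F) := by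
    rw [← Units.val_mul, hx, Units.val_mul]
  rw [Units.val_mul, Units.val_mul]
  show (1 + (w : Matrix ι ι F)) * (x : Matrix ι ι F) = (x : Matrix ι ι F) * (1 + (w : Matrix ι ι F))
  rw [add_mul, mul_add, one_mul, mul_one, hx']

theorem onePlus_conj_anti (h2 : (2 : F) ≠ 0) {w : GL ι F} (hw : w * w = -1) {x : GL ι F} (hx : x * w = -(w * x)) :
    onePlus h2 w hw * x * (onePlus h2 w hw)⁻¹ = -(x * w) := by
  rw [mul_inv_eq_iff_eq_mul]
  apply Units.ext
  have hw' : (w : Matrix ι ι F) * (w : Matrix ι ι F) = -1 := by rw [← Units.val_mul, hw]; simp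
  have hx' : (x : Matrix ι ι F) * (w : Matrix ι ι F) = -((w : Matrix ι ι F) * (x : Matrix ι ι F)) := by
    rw [← Units.val_mul, hx, Units.val_neg, Units.val_mul]
  rw [Units.val_mul, Units.val_mul, Units.val_neg, Units.val_mul]
  show (1 + (w : Matrix ι ι F)) * (x : Matrix ι ι F) = -((x : Matrix ι ι F) * (w : Matrix ι ι F)) * (1 + (w : Matrix ι ι F))
  rw [mul_add, mul_one, neg_mul, mul_assoc, hw', hx', mul_neg, mul_one, neg_neg, neg_neg, add_mul, one_mul, add_comm]

/-- **symplectic type** -/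
theorem EGrp.symplType [Finite F] [Nonempty ι] {N : Subgroup (GL ι F)} (h : EGrp N) {J : Matrix ι ι F} {ε : ℤ}
    (hd : IsoData N J ε) {q₁ q₂ : GL ι F} (h₁ : q₁ ∈ N) (h₂ : q₂ ∈ N) (hq₁ : q₁ * q₁ = -1)
    (hq₂ : q₂ * q₂ = -1) (h₁₂ : q₁ * q₂ = -(q₂ * q₁)) : IsSymplecticTypeGroup 2 N := by
  have hex := hd.exSp
  have h2 := hd.two
  have hne : (1 : GL ι F) ≠ -1 := by
    rw [← sc_neg_one]
    exact hd.sc_neg_ne.symm
  refine ⟨Nat.prime_two, Cls6Hyp.isPGroup_two hd, ?_, ?_⟩
  · intro A hA hAc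
    have hcen : A ≤ Subgroup.center N := by
      intro x hx
      rw [Subgroup.mem_center_iff]
      intro y
      by_contra hyx
      have hxy : (x : GL ι F) * y = -(y * x) := by
        rcases h.comm x x.2 y y.2 with h3 | h3
        · exact absurd (Subtype.ext h3.symm) hyx
        · exact h3
      obtain ⟨w, hw, hw1, hw2⟩ := rich h.comm h.sq h₁ h₂ hq₁ hq₂ h₁₂ x.2 y.2 hxy
      set U := onePlus h2 w hw1 with hU
      have hN : ∀ n ∈ N, U * n * U⁻¹ ∈ N := by
        intro n hn
        rcases h.comm n hn w hw with h3 | h3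
        · rw [hU, onePlus_conj_comm h2 hw1 h3]; exact hn
        · rw [hU, onePlus_conj_anti h2 hw1 h3, ← neg_one_mul]
          exact N.mul_mem h.neg (N.mul_mem hn hw)
      have hUn : U ∈ Subgroup.normalizer (N : Set (GL ι F)) := Subgroup.mem_normalizer_fintype hN
      rw [Subgroup.mem_normalizer_iff] at hUn
      let φ : N ≃* N :=
        { toFun := fun y => ⟨U * y * U⁻¹, hN y y.2⟩
          invFun := fun y => ⟨U⁻¹ * y * U, by
            rw [hUn]
            have : U * (U⁻¹ * (y : GL ι F) * U) * U⁻¹ = y := by group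
            rw [this]
            exact y.2⟩
          left_inv := fun y => by apply Subtype.ext; show U⁻¹ * (U * y * U⁻¹) * U = y; group
          right_inv := fun y => by apply Subtype.ext; show U * (U⁻¹ * y * U) * U⁻¹ = y; group
          map_mul' := fun y z => by
            apply Subtype.ext
            show U * (y * z : GL ι F) * U⁻¹ = U * y * U⁻¹ * (U * z * U⁻¹)
            group }
      have h4 : φ x ∈ A := (Subgroup.characteristic_iff_map_le.1 hA) φ ⟨x, hx, rfl⟩
      have h5 : ((φ x : N) : GL ι F) = -((x : GL ι F) * w) := onePlus_conj_anti h2 hw1 hw2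
      have h6 : x * φ x = φ x * x := congrArg (fun z : A => (z : N)) (hAc.is_comm.comm ⟨x, hx⟩ ⟨φ x, h4⟩)
      have h7 : (x : GL ι F) * (φ x : N) = (φ x : N) * (x : GL ι F) := congrArg (fun z : N => (z : GL ι F)) h6
      rw [h5, mul_neg, neg_mul, neg_inj, mul_assoc, mul_right_inj] at h7
      rw [hw2] at h7
      have h8 : (1 : GL ι F) = -1 := by
        have := congrArg (fun z => z * (w * (x : GL ι F))⁻¹) h7
        simp only [neg_mul, mul_inv_cancel] at this
        exact this.symm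
      exact hne h8
    have hcard := Cls6Hyp.card_center_self hd
    have hcyc : IsCyclic (Subgroup.center N) := by
      have := Fact.mk Nat.prime_two
      exact isCyclic_of_prime_card hcard
    exact isCyclic_of_injective (Subgroup.inclusion hcen) (Subgroup.inclusion_injective hcen)
  · show Monoid.exponent N = 2 * 2
    have hdvd : Monoid.exponent N ∣ 4 := by
      rw [Monoid.exponent_dvd_iff_forall_pow_eq_one]
      intro x
      rcases hex.sqs x with h1 | h1
      · rw [show 4 = 2 * 2 from rfl, pow_mul, pow_two x, h1, one_pow]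
      · rw [show 4 = 2 * 2 from rfl, pow_mul, pow_two x, h1, pow_two, hex.sq]
    have hne2 : ¬ Monoid.exponent N ∣ 2 := by
      intro he
      have h3 := (Monoid.exponent_dvd_iff_forall_pow_eq_one).1 he ⟨q₁, h₁⟩
      have h4 : q₁ ^ 2 = 1 := congrArg (fun z : N => (z : GL ι F)) h3
      rw [pow_two, hq₁] at h4
      exact hne h4.symm
    have h5 : Monoid.exponent N ∈ Nat.divisors 4 := Nat.mem_divisors.2 ⟨hdvd, by norm_num⟩
    have h6 : Nat.divisors 4 = {1, 2, 4} := by decide
    rw [h6] at h5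
    simp only [Finset.mem_insert, Finset.mem_singleton] at h5
    rcases h5 with h5 | h5 | h5
    · exact absurd (by rw [h5]; norm_num) hne2
    · exact absurd (by rw [h5]) hne2
    · exact h5

/-- **class 6 data** -/
theorem EGrp.class6 [Finite F] [Nonempty ι] {N : Subgroup (GL ι F)} (h : EGrp N) (h2 : (2 : F) ≠ 0)
    {f : (ι → F) → (ι → F) → F} (hf : IsSymplecticForm f) (hfix : FixesForm (matrixSet N) f)
    {q₁ q₂ : GL ι F} (h₁ : q₁ ∈ N) (h₂ : q₂ ∈ N) (hq₁ : q₁ * q₁ = -1)
    (hq₂ : q₂ * q₂ = -1) (h₁₂ : q₁ * q₂ = -(q₂ * q₁)) {k : ℕ} (hk : Fintype.card ι = 2 ^ k) :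
    IsSymplecticTypeGroup 2 N ∧ ActsAbsolutelyIrreducibly (matrixSet N) ∧ N ≤ similarityGroup f ∧
      Nat.card N = 2 ^ (1 + 2 * k) ∧ Nat.card (Subgroup.center N) = 2 ∧ IsOfMinusType k N := by
  have := Fintype.ofFinite F
  have hd := h.isoData h2 hf hfix
  refine ⟨h.symplType hd h₁ h₂ hq₁ hq₂ h₁₂, absIrred_of_spanAlg_eq_top h.symplData.span, ?_, ?_,
    Cls6Hyp.card_center_self hd, Cls6Hyp.minus_type hd hk⟩
  · intro g hg
    exact ⟨1, fun u v => by rw [hfix _ ⟨g, hg, rfl⟩, Units.val_one, one_mul]⟩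
  · rw [hd.card_N, hk, pow_add, pow_one, ← pow_mul, mul_comm k 2]

end Cfsg.Agent.TwoGrp
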