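import Mathlib
import Cfsg.Agent.TwoGrp.EGrp

set_option autoImplicit false
set_option linter.unusedSectionVars false

/-!
Kronecker products of groups of matrices; transport along coordinates.
-/

namespace Cfsg.Agent.TwoGrp

open Module Cfsg.Geo Cfsg.Agent.Asch Cfsg.Agent.Asch.Sympl
open scoped Matrix MatrixGroups Kronecker

variable {ι κ κ₁ κ₂ : Type} [Fintype ι] [DecidableEq ι] [Fintype κ] [DecidableEq κ] [Fintype κ₁] [DecidableEq κ₁]
  [Fintype κ₂] [DecidableEq κ₂] {F : Type*} [Field F]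

/-- Kronecker product of invertible matrices -/
noncomputable def kronHom : GL κ₁ F × GL κ₂ F →* GL (κ₁ × κ₂) F where
  toFun xy :=
    { val := (xy.1 : Matrix κ₁ κ₁ F) ⊗ₖ (xy.2 : Matrix κ₂ κ₂ F)
      inv := ((xy.1⁻¹ : GL κ₁ F) : Matrix κ₁ κ₁ F) ⊗ₖ ((xy.2⁻¹ : GL κ₂ F) : Matrix κ₂ κ₂ F)
      val_inv := by
        rw [← Matrix.mul_kronecker_mul, ← Units.val_mul, ← Units.val_mul,
          mul_inv_cancel, mul_inv_cancel, Units.val_one, Units.val_one, Matrix.one_kronecker_one]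
      inv_val := by
        rw [← Matrix.mul_kronecker_mul, ← Units.val_mul, ← Units.val_mul,
          inv_mul_cancel, inv_mul_cancel, Units.val_one, Units.val_one, Matrix.one_kronecker_one] }
  map_one' := by
    apply Units.ext
    show (1 : Matrix κ₁ κ₁ F) ⊗ₖ (1 : Matrix κ₂ κ₂ F) = 1
    rw [Matrix.one_kronecker_one]
  map_mul' xy zw := by
    apply Units.ext
    show ((xy.1 * zw.1 : GL κ₁ F) : Matrix κ₁ κ₁ F) ⊗ₖ ((xy.2 * zw.2 : GL κ₂ F) : Matrix κ₂ κ₂ F) =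
      ((xy.1 : Matrix κ₁ κ₁ F) ⊗ₖ (xy.2 : Matrix κ₂ κ₂ F)) * ((zw.1 : Matrix κ₁ κ₁ F) ⊗ₖ (zw.2 : Matrix κ₂ κ₂ F))
    rw [Units.val_mul, Units.val_mul, Matrix.mul_kronecker_mul]

theorem kronHom_val (x : GL κ₁ F) (y : GL κ₂ F) :
    (kronHom (x, y) : Matrix (κ₁ × κ₂) (κ₁ × κ₂) F) = (x : Matrix κ₁ κ₁ F) ⊗ₖ (y : Matrix κ₂ κ₂ F) := rfl

theorem kronHom_neg_left (x : GL κ₁ F) (y : GL κ₂ F) : kronHom (-x, y) = -kronHom (x, y) := by
  apply Units.ext
  rw [Units.val_neg, kronHom_val, kronHom_val, Units.val_neg]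
  ext i j
  simp [Matrix.kroneckerMap_apply]

theorem kronHom_neg_right (x : GL κ₁ F) (y : GL κ₂ F) : kronHom (x, -y) = -kronHom (x, y) := by
  apply Units.ext
  rw [Units.val_neg, kronHom_val, kronHom_val, Units.val_neg]
  ext i j
  simp [Matrix.kroneckerMap_apply]

/-- the Kronecker product of two groups -/
noncomputable def kron (N₁ : Subgroup (GL κ₁ F)) (N₂ : Subgroup (GL κ₂ F)) : Subgroup (GL (κ₁ × κ₂) F) :=
  (N₁.prod N₂).map kronHom

theorem mem_kron {N₁ : Subgroup (GL κ₁ F)} {N₂ : Subgroup (GL κ₂ F)} {g : GL (κ₁ × κ₂) F} :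
    g ∈ kron N₁ N₂ ↔ ∃ x ∈ N₁, ∃ y ∈ N₂, g = kronHom (x, y) := by
  constructor
  · rintro ⟨⟨x, y⟩, ⟨hx, hy⟩, rfl⟩
    exact ⟨x, hx, y, hy, rfl⟩
  · rintro ⟨x, hx, y, hy, rfl⟩
    exact ⟨(x, y), ⟨hx, hy⟩, rfl⟩

theorem kronHom_mem {N₁ : Subgroup (GL κ₁ F)} {N₂ : Subgroup (GL κ₂ F)} {x : GL κ₁ F} {y : GL κ₂ F}
    (hx : x ∈ N₁) (hy : y ∈ N₂) : kronHom (x, y) ∈ kron N₁ N₂ := mem_kron.2 ⟨x, hx, y, hy, rfl⟩

theorem EGrp.kron {N₁ : Subgroup (GL κ₁ F)} {N₂ : Subgroup (GL κ₂ F)} (h₁ : EGrp N₁) (h₂ : EGrp N₂) :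
    EGrp (TwoGrp.kron N₁ N₂) where
  span := by
    have h1 : ∀ (A : Matrix κ₁ κ₁ F) (B : Matrix κ₂ κ₂ F),
        A ⊗ₖ B ∈ Submodule.span F (matrixSet (TwoGrp.kron N₁ N₂)) := by
      intro A B
      have hA : A ∈ Submodule.span F (matrixSet N₁) := by rw [h₁.span]; trivial
      have hB : B ∈ Submodule.span F (matrixSet N₂) := by rw [h₂.span]; trivial
      induction hA using Submodule.span_induction with
      | mem A hA =>
        obtain ⟨x, hx, rfl⟩ := hA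
        induction hB using Submodule.span_induction with
        | mem B hB =>
          obtain ⟨y, hy, rfl⟩ := hB
          exact Submodule.subset_span ⟨kronHom (x, y), kronHom_mem hx hy, rfl⟩
        | zero => rw [Matrix.kronecker_zero]; exact Submodule.zero_mem _
        | add X Y _ _ hX hY => rw [Matrix.kronecker_add]; exact Submodule.add_mem _ hX hY
        | smul c X _ hX => rw [Matrix.kronecker_smul]; exact Submodule.smul_mem _ c hX
      | zero => rw [Matrix.zero_kronecker]; exact Submodule.zero_mem _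
      | add X Y _ _ hX hY => rw [Matrix.add_kronecker]; exact Submodule.add_mem _ hX hY
      | smul c X _ hX => rw [Matrix.smul_kronecker]; exact Submodule.smul_mem _ c hX
    rw [eq_top_iff]
    intro T _
    rw [Matrix.matrix_eq_sum_single T]
    apply Submodule.sum_mem
    rintro ⟨i, j⟩ _
    apply Submodule.sum_mem
    rintro ⟨i', j'⟩ _
    have h3 : Matrix.single (i, j) (i', j') (T (i, j) (i', j')) =
        (T (i, j) (i', j')) • (Matrix.single i i' (1 : F) ⊗ₖ Matrix.single j j' (1 : F)) := by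
      rw [Matrix.single_kronecker_single, Matrix.smul_single, smul_eq_mul, mul_one, mul_one]
    rw [h3]
    exact Submodule.smul_mem _ _ (h1 _ _)
  comm := by
    rintro _ ⟨⟨x, y⟩, ⟨hx, hy⟩, rfl⟩ _ ⟨⟨z, w⟩, ⟨hz, hw⟩, rfl⟩
    rw [← map_mul, ← map_mul, Prod.mk_mul_mk, Prod.mk_mul_mk]
    rcases h₁.comm x hx z hz with e1 | e1 <;> rcases h₂.comm y hy w hw with e2 | e2 <;> rw [e1, e2]
    · exact Or.inl rfl
    · exact Or.inr (kronHom_neg_right _ _)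
    · exact Or.inr (kronHom_neg_left _ _)
    · rw [kronHom_neg_left, kronHom_neg_right, neg_neg]; exact Or.inl rfl
  sq := by
    rintro _ ⟨⟨x, y⟩, ⟨hx, hy⟩, rfl⟩
    rw [← map_mul, Prod.mk_mul_mk]
    rcases h₁.sq x hx with e1 | e1 <;> rcases h₂.sq y hy with e2 | e2 <;> rw [e1, e2]
    · exact Or.inl (map_one kronHom)
    · rw [kronHom_neg_right]; exact Or.inr (congrArg _ (map_one kronHom))
    · rw [kronHom_neg_left]; exact Or.inr (congrArg _ (map_one kronHom))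
    · rw [kronHom_neg_left, kronHom_neg_right, neg_neg]; exact Or.inl (map_one kronHom)
  neg := by
    have := kronHom_mem (N₁ := N₁) (N₂ := N₂) h₁.neg N₂.one_mem
    rw [kronHom_neg_left] at this
    have e : kronHom ((1 : GL κ₁ F), (1 : GL κ₂ F)) = 1 := map_one kronHom
    rwa [e] at this

/-- `M` normalises `N` (one inclusion) -/
def Nrm (M : GL κ F) (N : Subgroup (GL κ F)) : Prop := ∀ x ∈ N, M * x * M⁻¹ ∈ N

theorem Nrm.kron {N₁ : Subgroup (GL κ₁ F)} {N₂ : Subgroup (GL κ₂ F)} {A : GL κ₁ F} {B : GL κ₂ F} (hA : Nrm A N₁)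
    (hB : Nrm B N₂) : Nrm (kronHom (A, B)) (TwoGrp.kron N₁ N₂) := by
  rintro _ ⟨⟨x, y⟩, ⟨hx, hy⟩, rfl⟩
  rw [← map_mul, ← map_inv, ← map_mul]
  exact kronHom_mem (hA x hx) (hB y hy)

theorem Nrm.mul {N : Subgroup (GL κ F)} {A B : GL κ F} (hA : Nrm A N) (hB : Nrm B N) : Nrm (A * B) N := by
  intro x hx
  have := hA _ (hB x hx)
  have e : A * B * x * (A * B)⁻¹ = A * (B * x * B⁻¹) * A⁻¹ := by group
  rwa [e]

/-- the swap of the factors -/
noncomputable def swapGL : GL (κ × κ) F where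
  val := Matrix.reindex (Equiv.refl _) (Equiv.prodComm κ κ) (1 : Matrix (κ × κ) (κ × κ) F)
  inv := Matrix.reindex (Equiv.refl _) (Equiv.prodComm κ κ) (1 : Matrix (κ × κ) (κ × κ) F)
  val_inv := by
    ext ⟨a, b⟩ ⟨c, d⟩
    simp [Matrix.mul_apply, Matrix.one_apply]
  inv_val := by
    ext ⟨a, b⟩ ⟨c, d⟩
    simp [Matrix.mul_apply, Matrix.one_apply]

theorem swapGL_val (a b c d : κ) : (swapGL : GL (κ × κ) F).val (a, b) (c, d) = if a = d ∧ b = c then 1 else 0 := by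
  show (1 : Matrix (κ × κ) (κ × κ) F) (a, b) (d, c) = _
  rw [Matrix.one_apply]
  simp

theorem swapGL_mulVec (X : κ × κ → F) : ((swapGL : GL (κ × κ) F) : Matrix (κ × κ) (κ × κ) F) *ᵥ X = X ∘ Prod.swap := by
  funext ⟨a, b⟩
  rw [Matrix.mulVec, dotProduct, Fintype.sum_prod_type]
  simp only [swapGL_val]
  rw [Finset.sum_eq_single b]
  · rw [Finset.sum_eq_single a]
    · simp
    · intro j _ hj; rw [if_neg (fun h => hj h.1.symm), zero_mul]
    · intro h; exact absurd (Finset.mem_univ _) h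
  · intro j _ hj
    refine Finset.sum_eq_zero fun k _ => ?_
    rw [if_neg (fun h => hj h.2.symm), zero_mul]
  · intro h; exact absurd (Finset.mem_univ _) h

theorem kronHom_mulVec_mk (A : GL κ₁ F) (B : GL κ₂ F) (X : κ₁ × κ₂ → F) (i : κ₁) (j : κ₂) :
    ((kronHom (A, B) : Matrix (κ₁ × κ₂) (κ₁ × κ₂) F) *ᵥ X) (i, j) = ∑ k, ∑ l, A.val i k * B.val j l * X (k, l) := by
  rw [Matrix.mulVec, dotProduct, Fintype.sum_prod_type]
  rfl

theorem ext_mulVec {A B : GL κ F} (h : ∀ X : κ → F, (A : Matrix κ κ F) *ᵥ X = (B : Matrix κ κ F) *ᵥ X) : A = B := by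
  apply Units.ext
  apply Matrix.ext_of_mulVec_single
  intro i
  exact h _

theorem swap_mul_kron (A B : GL κ F) : (swapGL : GL (κ × κ) F) * kronHom (A, B) = kronHom (B, A) * swapGL := by
  apply ext_mulVec
  intro X
  rw [Units.val_mul, Units.val_mul, ← Matrix.mulVec_mulVec, ← Matrix.mulVec_mulVec, swapGL_mulVec, swapGL_mulVec]
  funext ⟨a, b⟩
  rw [Function.comp_apply, Prod.swap_prod_mk, kronHom_mulVec_mk, kronHom_mulVec_mk, Finset.sum_comm]
  refine Finset.sum_congr rfl fun i _ => Finset.sum_congr rfl fun j _ => ?_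
  rw [Function.comp_apply, Prod.swap_prod_mk]
  ring

theorem Nrm.swap (N : Subgroup (GL κ F)) : Nrm swapGL (TwoGrp.kron N N) := by
  rintro _ ⟨⟨x, y⟩, ⟨hx, hy⟩, rfl⟩
  rw [swap_mul_kron, mul_assoc, mul_inv_cancel, mul_one]
  exact kronHom_mem hy hx

/-! ### transport -/

/-- conjugation with a linear isomorphism -/
noncomputable def trA (Φ : (κ → F) ≃ₗ[F] (ι → F)) : Matrix κ κ F ≃ₐ[F] Matrix ι ι F :=
  (Matrix.toLinAlgEquiv'.trans (Φ.conjAlgEquiv F)).trans LinearMap.toMatrixAlgEquiv'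

theorem trA_mulVec (Φ : (κ → F) ≃ₗ[F] (ι → F)) (M : Matrix κ κ F) (X : κ → F) :
    trA Φ M *ᵥ (Φ X) = Φ (M *ᵥ X) := by
  have h : Matrix.toLin' (trA Φ M) = (Φ : (κ → F) →ₗ[F] (ι → F)) ∘ₗ (Matrix.toLin' M) ∘ₗ (Φ.symm : (ι → F) →ₗ[F] (κ → F)) :=
    Matrix.toLin'_toMatrix' ((Φ : (κ → F) →ₗ[F] (ι → F)) ∘ₗ (Matrix.toLin' M) ∘ₗ (Φ.symm : (ι → F) →ₗ[F] (κ → F)))
  rw [← Matrix.toLin'_apply, h]
  simp

/-- the same on invertible matrices -/
noncomputable def trG (Φ : (κ → F) ≃ₗ[F] (ι → F)) : GL κ F ≃* GL ι F := Units.mapEquiv (trA Φ).toMulEquiv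

theorem trG_val (Φ : (κ → F) ≃ₗ[F] (ι → F)) (M : GL κ F) : (trG Φ M : Matrix ι ι F) = trA Φ (M : Matrix κ κ F) := rfl

theorem trG_mulVec (Φ : (κ → F) ≃ₗ[F] (ι → F)) (M : GL κ F) (X : κ → F) :
    (trG Φ M : Matrix ι ι F) *ᵥ (Φ X) = Φ ((M : Matrix κ κ F) *ᵥ X) := trA_mulVec Φ _ X

theorem trG_neg (Φ : (κ → F) ≃ₗ[F] (ι → F)) (M : GL κ F) : trG Φ (-M) = - trG Φ M := by
  apply Units.ext
  rw [Units.val_neg, trG_val, trG_val, Units.val_neg, map_neg]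

theorem eq_trG {Φ : (κ → F) ≃ₗ[F] (ι → F)} {g : GL ι F} {M : GL κ F}
    (h : ∀ X, (g : Matrix ι ι F) *ᵥ (Φ X) = Φ ((M : Matrix κ κ F) *ᵥ X)) : g = trG Φ M := by
  apply ext_mulVec
  intro v
  obtain ⟨X, rfl⟩ := Φ.surjective v
  rw [h, trG_mulVec]

theorem EGrp.map (Φ : (κ → F) ≃ₗ[F] (ι → F)) {N : Subgroup (GL κ F)} (h : EGrp N) :
    EGrp (N.map (trG Φ).toMonoidHom) where
  span := by
    have h1 : matrixSet (N.map (trG Φ).toMonoidHom) = (trA Φ).toLinearMap '' matrixSet N := by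
      ext x
      constructor
      · rintro ⟨_, ⟨g, hg, rfl⟩, rfl⟩
        exact ⟨g, ⟨g, hg, rfl⟩, rfl⟩
      · rintro ⟨_, ⟨g, hg, rfl⟩, rfl⟩
        exact ⟨_, ⟨g, hg, rfl⟩, rfl⟩
    rw [h1, ← Submodule.map_span, h.span, Submodule.map_top, LinearMap.range_eq_top]
    exact (trA Φ).surjective
  comm := by
    rintro _ ⟨x, hx, rfl⟩ _ ⟨y, hy, rfl⟩
    rw [← map_mul, ← map_mul]
    rcases h.comm x hx y hy with e | e <;> rw [e]
    · exact Or.inl rfl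
    · exact Or.inr (trG_neg Φ _)
  sq := by
    rintro _ ⟨x, hx, rfl⟩
    rw [← map_mul]
    rcases h.sq x hx with e | e <;> rw [e]
    · exact Or.inl (map_one _)
    · right
      show trG Φ (-1) = -1
      rw [trG_neg, map_one]
  neg := by
    refine ⟨-1, h.neg, ?_⟩
    show trG Φ (-1) = -1
    rw [trG_neg, map_one]

theorem mem_normalizer_map [Finite F] {Φ : (κ → F) ≃ₗ[F] (ι → F)} {N : Subgroup (GL κ F)} {M : GL κ F} (h : Nrm M N) :
    trG Φ M ∈ subgroupNormalizer (N.map (trG Φ).toMonoidHom) := by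
  refine Subgroup.mem_normalizer_fintype ?_
  rintro _ ⟨x, hx, rfl⟩
  refine ⟨M * x * M⁻¹, h x hx, ?_⟩
  show trG Φ (M * x * M⁻¹) = trG Φ M * trG Φ x * (trG Φ M)⁻¹
  rw [map_mul, map_mul, map_inv]

/-- elements preserving the Gram matrix are isometries -/
theorem isom_trG {Φ : (κ → F) ≃ₗ[F] (ι → F)} {f : (ι → F) → (ι → F) → F} {G : Matrix κ κ F}
    (hG : ∀ X Y, f (Φ X) (Φ Y) = X ⬝ᵥ (G *ᵥ Y)) {M : GL κ F} (hM : (M : Matrix κ κ F)ᵀ * G * (M : Matrix κ κ F) = G)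
    (u v : ι → F) : f ((trG Φ M : Matrix ι ι F) *ᵥ u) ((trG Φ M : Matrix ι ι F) *ᵥ v) = f u v := by
  obtain ⟨X, rfl⟩ := Φ.surjective u
  obtain ⟨Y, rfl⟩ := Φ.surjective v
  rw [trG_mulVec, trG_mulVec, hG, hG]
  conv_rhs => rw [← hM]
  rw [← Matrix.mulVec_mulVec, ← Matrix.mulVec_mulVec, Matrix.mulVec_transpose, dotProduct_comm X, ← Matrix.dotProduct_mulVec,
    dotProduct_comm]

/-- conversely -/
theorem gram_of_isom {Φ : (κ → F) ≃ₗ[F] (ι → F)} {f : (ι → F) → (ι → F) → F} {G : Matrix κ κ F}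
    (hG : ∀ X Y, f (Φ X) (Φ Y) = X ⬝ᵥ (G *ᵥ Y)) {g : GL ι F}
    (hg : ∀ u v, f ((g : Matrix ι ι F) *ᵥ u) ((g : Matrix ι ι F) *ᵥ v) = f u v) {M : Matrix κ κ F}
    (hM : ∀ X, (g : Matrix ι ι F) *ᵥ (Φ X) = Φ (M *ᵥ X)) : Mᵀ * G * M = G := by
  ext i j
  rw [← dot_mulVec_single (Mᵀ * G * M) i j, ← dot_mulVec_single G i j]
  have h1 := hg (Φ (Pi.single i 1)) (Φ (Pi.single j 1))
  rw [hM, hM, hG, hG] at h1
  rw [← Matrix.mulVec_mulVec, ← Matrix.mulVec_mulVec, Matrix.mulVec_transpose, dotProduct_comm, ← Matrix.dotProduct_mulVec,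
    dotProduct_comm]
  exact h1

end Cfsg.Agent.TwoGrp
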