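import Mathlib
import Cfsg.Agent.TwoGrp.Kron
import Cfsg.Agent.AschCases.TensThree

set_option autoImplicit false
set_option linter.unusedSectionVars false
set_option linter.unusedTactic false

/-!
The quaternion group and the dihedral group of order eight in dimension two over the field with three elements.
-/

namespace Cfsg.Agent.TwoGrp

open Module Cfsg.Geo Cfsg.Agent.Asch Cfsg.Agent.Asch.Sympl Cfsg.Agent.AschCases
open scoped Matrix MatrixGroups Kronecker

section closure

variable {G : Type*} [Group G] [HasDistribNeg G]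

theorem comm_closure {S : Set G} (h : ∀ a ∈ S, ∀ b ∈ S, a * b = b * a ∨ a * b = -(b * a)) :
    ∀ x ∈ Subgroup.closure S, ∀ y ∈ Subgroup.closure S, x * y = y * x ∨ x * y = -(y * x) := by
  have hmul : ∀ a y z : G, (a * y = y * a ∨ a * y = -(y * a)) → (a * z = z * a ∨ a * z = -(z * a)) →
      (a * (y * z) = y * z * a ∨ a * (y * z) = -(y * z * a)) := by
    intro a y z hy hz
    rcases hy with hy | hy <;> rcases hz with hz | hz
    · left; rw [← mul_assoc, hy, mul_assoc, hz, mul_assoc]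
    · right; rw [← mul_assoc, hy, mul_assoc, hz, mul_neg, mul_assoc]
    · right; rw [← mul_assoc, hy, neg_mul, mul_assoc, hz, mul_assoc]
    · left; rw [← mul_assoc, hy, neg_mul, mul_assoc, hz, mul_neg, neg_neg, mul_assoc]
  have hinv : ∀ a y : G, (a * y = y * a ∨ a * y = -(y * a)) → (a * y⁻¹ = y⁻¹ * a ∨ a * y⁻¹ = -(y⁻¹ * a)) := by
    intro a y hy
    rcases hy with hy | hy
    · left
      rw [eq_inv_mul_iff_mul_eq, ← mul_assoc, ← hy, mul_assoc, mul_inv_cancel, mul_one]
    · right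
      rw [← mul_neg, eq_inv_mul_iff_mul_eq, ← mul_assoc, ← neg_neg (y * a), ← hy, neg_mul, mul_assoc, mul_inv_cancel, mul_one]
  have h1 : ∀ a ∈ S, ∀ y ∈ Subgroup.closure S, a * y = y * a ∨ a * y = -(y * a) := by
    intro a ha y hy
    induction hy using Subgroup.closure_induction with
    | mem b hb => exact h a ha b hb
    | one => left; simp
    | mul y z _ _ hy hz => exact hmul a y z hy hz
    | inv y _ hy => exact hinv a y hy
  have hsym : ∀ x y : G, (x * y = y * x ∨ x * y = -(y * x)) → (y * x = x * y ∨ y * x = -(x * y)) := by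
    intro x y hxy
    rcases hxy with hxy | hxy
    · exact Or.inl hxy.symm
    · right; rw [hxy, neg_neg]
  intro x hx y hy
  induction hx using Subgroup.closure_induction with
  | mem b hb => exact h1 b hb y hy
  | one => left; simp
  | mul x z _ _ hx hz => exact hsym _ _ (hmul y x z (hsym _ _ hx) (hsym _ _ hz))
  | inv x _ hx => exact hsym _ _ (hinv y x (hsym _ _ hx))

theorem sq_closure {S : Set G} (h : ∀ a ∈ S, ∀ b ∈ S, a * b = b * a ∨ a * b = -(b * a))
    (hs : ∀ a ∈ S, a * a = 1 ∨ a * a = -1) : ∀ x ∈ Subgroup.closure S, x * x = 1 ∨ x * x = -1 := by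
  intro x hx
  induction hx using Subgroup.closure_induction with
  | mem b hb => exact hs b hb
  | one => left; simp
  | mul x y hx' hy' hx hy =>
    have e : x * y * (x * y) = x * (y * x) * y := by group
    have e2 : x * (x * y) * y = (x * x) * (y * y) := by group
    rcases comm_closure h y hy' x hx' with hc | hc <;> rw [e, hc]
    · rw [e2]
      rcases hx with hx | hx <;> rcases hy with hy | hy <;> rw [hx, hy] <;> simp
    · rw [mul_neg, neg_mul, e2]
      rcases hx with hx | hx <;> rcases hy with hy | hy <;> rw [hx, hy] <;> simp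
  | inv x _ hx =>
    rw [← mul_inv_rev]
    rcases hx with hx | hx <;> rw [hx]
    · left; simp
    · right; rw [inv_eq_iff_mul_eq_one]; simp

end closure

variable {F : Type*} [Field F]

/-- `[0, 1; -1, 0]` -/
def q1 : GL (Fin 2) F where
  val := !![0, 1; -1, 0]
  inv := !![0, -1; 1, 0]
  val_inv := by ext i j; fin_cases i <;> fin_cases j <;> simp
  inv_val := by ext i j; fin_cases i <;> fin_cases j <;> simp

/-- `[1, 1; 1, -1]` in characteristic three -/
def q2 (h3 : (3 : F) = 0) : GL (Fin 2) F where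
  val := !![1, 1; 1, -1]
  inv := !![-1, -1; -1, 1]
  val_inv := by
    ext i j
    fin_cases i <;> fin_cases j <;> simp <;> linear_combination -h3
  inv_val := by
    ext i j
    fin_cases i <;> fin_cases j <;> simp <;> linear_combination -h3

theorem q1_val : ((q1 : GL (Fin 2) F) : Matrix (Fin 2) (Fin 2) F) = !![0, 1; -1, 0] := rfl

theorem q2_val (h3 : (3 : F) = 0) : ((q2 h3 : GL (Fin 2) F) : Matrix (Fin 2) (Fin 2) F) = !![1, 1; 1, -1] := rfl

theorem q1_sq : (q1 : GL (Fin 2) F) * q1 = -1 := by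
  apply Units.ext
  rw [Units.val_mul, q1_val, Units.val_neg, Units.val_one]
  ext i j
  fin_cases i <;> fin_cases j <;> simp

theorem q2_sq (h3 : (3 : F) = 0) : (q2 h3 : GL (Fin 2) F) * q2 h3 = -1 := by
  apply Units.ext
  rw [Units.val_mul, q2_val, Units.val_neg, Units.val_one]
  ext i j
  fin_cases i <;> fin_cases j <;> simp <;> linear_combination h3

theorem q12 (h3 : (3 : F) = 0) : (q1 : GL (Fin 2) F) * q2 h3 = -(q2 h3 * q1) := by
  apply Units.ext
  rw [Units.val_neg, Units.val_mul, Units.val_mul, q2_val, q1_val]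
  ext i j
  fin_cases i <;> fin_cases j <;> simp

/-- the quaternion group -/
def Q8 (h3 : (3 : F) = 0) : Subgroup (GL (Fin 2) F) := Subgroup.closure {q1, q2 h3}

theorem q1_mem (h3 : (3 : F) = 0) : q1 ∈ Q8 h3 := Subgroup.subset_closure (by simp)

theorem q2_mem (h3 : (3 : F) = 0) : q2 h3 ∈ Q8 h3 := Subgroup.subset_closure (by simp)

theorem neg_mem_Q8 (h3 : (3 : F) = 0) : (-1 : GL (Fin 2) F) ∈ Q8 h3 := by
  rw [← q1_sq]; exact (Q8 h3).mul_mem (q1_mem h3) (q1_mem h3)

theorem neg_mem_Q8' (h3 : (3 : F) = 0) {x : GL (Fin 2) F} (hx : x ∈ Q8 h3) : -x ∈ Q8 h3 := by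
  rw [← neg_one_mul]; exact (Q8 h3).mul_mem (neg_mem_Q8 h3) hx

theorem gens_comm (h3 : (3 : F) = 0) : ∀ a ∈ ({q1, q2 h3} : Set (GL (Fin 2) F)), ∀ b ∈ ({q1, q2 h3} : Set (GL (Fin 2) F)),
    a * b = b * a ∨ a * b = -(b * a) := by
  rintro a (rfl | rfl) b (rfl | rfl)
  · exact Or.inl rfl
  · exact Or.inr (q12 h3)
  · right
    have := q12 h3
    rw [this, neg_neg]
  · exact Or.inl rfl

theorem eq_of_entries {x : Matrix (Fin 2) (Fin 2) F} {a b c d : F} (h : x 0 0 = a) (h' : x 0 1 = b) (h'' : x 1 0 = c)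
    (h''' : x 1 1 = d) : x = !![a, b; c, d] := by
  ext i j
  fin_cases i <;> fin_cases j <;> simp [h, h', h'', h''']

theorem Q8_egrp (h3 : (3 : F) = 0) (h2 : (2 : F) ≠ 0) : EGrp (Q8 h3) where
  span := by
    rw [eq_top_iff]
    intro T _
    set S := Submodule.span F (matrixSet (Q8 h3)) with hS
    have m0 : (1 : Matrix (Fin 2) (Fin 2) F) ∈ S := Submodule.subset_span ⟨1, (Q8 h3).one_mem, rfl⟩
    have m1 : (!![0, 1; -1, 0] : Matrix (Fin 2) (Fin 2) F) ∈ S := Submodule.subset_span ⟨q1, q1_mem h3, rfl⟩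
    have m2 : (!![1, 1; 1, -1] : Matrix (Fin 2) (Fin 2) F) ∈ S := Submodule.subset_span ⟨q2 h3, q2_mem h3, rfl⟩
    have m3 : (!![1, -1; -1, -1] : Matrix (Fin 2) (Fin 2) F) ∈ S := by
      refine Submodule.subset_span ⟨q1 * q2 h3, (Q8 h3).mul_mem (q1_mem h3) (q2_mem h3), ?_⟩
      show ((q1 * q2 h3 : GL (Fin 2) F) : Matrix (Fin 2) (Fin 2) F) = _
      rw [Units.val_mul, q1_val, q2_val]
      ext i j
      fin_cases i <;> fin_cases j <;> simp
    have h4 : (4 : F) ≠ 0 := by
      have : (4 : F) = 2 * 2 := by norm_num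
      rw [this]; exact mul_ne_zero h2 h2
    have key : T = ((T 0 0 + T 1 1) / 2) • (1 : Matrix (Fin 2) (Fin 2) F) + ((T 0 1 - T 1 0) / 2) • !![0, 1; -1, 0] +
        ((T 0 0 - T 1 1 + T 0 1 + T 1 0) / 4) • !![1, 1; 1, -1] +
        ((T 0 0 - T 1 1 - T 0 1 - T 1 0) / 4) • !![1, -1; -1, -1] := by
      ext i j
      fin_cases i <;> fin_cases j <;> simp <;> field_simp <;> ring
    rw [key]
    exact S.add_mem (S.add_mem (S.add_mem (S.smul_mem _ m0) (S.smul_mem _ m1)) (S.smul_mem _ m2)) (S.smul_mem _ m3)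
  comm := comm_closure (gens_comm h3)
  sq := sq_closure (gens_comm h3) (by
    rintro a (rfl | rfl)
    · exact Or.inr q1_sq
    · exact Or.inr (q2_sq h3))
  neg := neg_mem_Q8 h3

theorem det_Q8 (h3 : (3 : F) = 0) {x : GL (Fin 2) F} (hx : x ∈ Q8 h3) : (x : Matrix (Fin 2) (Fin 2) F).det = 1 := by
  induction hx using Subgroup.closure_induction with
  | mem b hb =>
    rcases hb with rfl | rfl
    · rw [q1_val, Matrix.det_fin_two_of]; ring
    · rw [q2_val, Matrix.det_fin_two_of]; linear_combination -h3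
  | one => simp
  | mul x y _ _ hx hy => rw [Units.val_mul, Matrix.det_mul, hx, hy, one_mul]
  | inv x _ hx =>
    have h1 : (x : Matrix (Fin 2) (Fin 2) F) * ((x⁻¹ : GL (Fin 2) F) : Matrix (Fin 2) (Fin 2) F) = 1 := by
      rw [← Units.val_mul, mul_inv_cancel, Units.val_one]
    have h2 := congrArg Matrix.det h1
    rwa [Matrix.det_mul, hx, one_mul, Matrix.det_one] at h2

/-- elements of order four are in the quaternion group -/
theorem mem_Q8_of_sq [Fintype F] (hq : Fintype.card F = 3) (h3 : (3 : F) = 0) {y : GL (Fin 2) F} (hy : y * y = -1) :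
    y ∈ Q8 h3 := by
  have h2 := three_field_two_ne hq
  have hy' : (y : Matrix (Fin 2) (Fin 2) F) * (y : Matrix (Fin 2) (Fin 2) F) = -1 := by rw [← Units.val_mul, hy]; simp
  obtain ⟨a, ha⟩ : ∃ a, (y : Matrix (Fin 2) (Fin 2) F) 0 0 = a := ⟨_, rfl⟩
  obtain ⟨b, hb⟩ : ∃ a, (y : Matrix (Fin 2) (Fin 2) F) 0 1 = a := ⟨_, rfl⟩
  obtain ⟨c, hc⟩ : ∃ a, (y : Matrix (Fin 2) (Fin 2) F) 1 0 = a := ⟨_, rfl⟩
  obtain ⟨d, hd⟩ : ∃ a, (y : Matrix (Fin 2) (Fin 2) F) 1 1 = a := ⟨_, rfl⟩
  have hyE := eq_of_entries ha hb hc hd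
  rw [hyE] at hy'
  have e00 : a * a + b * c = -1 := by simpa using congrFun (congrFun hy' 0) 0
  have e01 : a * b + b * d = 0 := by simpa using congrFun (congrFun hy' 0) 1
  have e10 : c * a + d * c = 0 := by simpa using congrFun (congrFun hy' 1) 0
  have e11 : c * b + d * d = -1 := by simpa using congrFun (congrFun hy' 1) 1
  have hsq : ∀ x : F, x ≠ 0 → x * x = 1 := by
    intro x hx
    rcases (three_field_cases hq x).resolve_left hx with rfl | rfl <;> ring
  have hd' : d = -a := by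
    by_contra hne
    have hs : a + d ≠ 0 := fun h => hne (by linear_combination h)
    have hb0 : b = 0 := (mul_eq_zero.1 (show b * (a + d) = 0 by linear_combination e01)).resolve_right hs
    rw [hb0, zero_mul, add_zero] at e00
    by_cases ha0 : a = 0
    · rw [ha0, mul_zero] at e00
      exact one_ne_zero (α := F) (by linear_combination e00)
    · rw [hsq a ha0] at e00
      exact h2 (by linear_combination e00)
  subst hd'
  have hpm : ∀ x : F, x ≠ 0 → ∀ (z w : GL (Fin 2) F), z ∈ Q8 h3 →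
      (w : Matrix (Fin 2) (Fin 2) F) = x • (z : Matrix (Fin 2) (Fin 2) F) → w ∈ Q8 h3 := by
    intro x hx z w hz hw
    rcases (three_field_cases hq x).resolve_left hx with rfl | rfl
    · rw [one_smul] at hw
      rw [Units.ext hw]; exact hz
    · have : w = -z := Units.ext (by rw [hw, Units.val_neg]; simp)
      rw [this]; exact neg_mem_Q8' h3 hz
  have hnorm : (c - b) * (c - b) + (-a + b + c) * (-a + b + c) + (-a - b - c) * (-a - b - c) = 1 := by
    linear_combination 2 * e00 + (b * b + c * c - 1) * h3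
  rcases norm_one_three hq _ _ _ hnorm with ⟨f1, f2, f3⟩ | ⟨f1, f2, f3⟩ | ⟨f1, f2, f3⟩
  · have ha0 : a = 0 := by
      have : (2 : F) * a = 0 := by linear_combination -f2 - f3
      exact (mul_eq_zero.1 this).resolve_left h2
    have hc0 : c = -b := by linear_combination f2 + ha0
    refine hpm b ?_ q1 y (q1_mem h3) ?_
    · rintro rfl; apply f1; rw [hc0]; ring
    · rw [hyE, q1_val, ha0, hc0]
      ext i j
      fin_cases i <;> fin_cases j <;> simp
  · have hc0 : c = b := by linear_combination f1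
    have ha0 : a = b := by linear_combination -f3 - hc0 - b * h3
    refine hpm b ?_ (q2 h3) y (q2_mem h3) ?_
    · rintro rfl; apply f2; rw [hc0, ha0]; ring
    · rw [hyE, q2_val, ha0, hc0]
      ext i j
      fin_cases i <;> fin_cases j <;> simp
  · have hc0 : c = b := by linear_combination f1
    have ha0 : a = -b := by linear_combination -f2 + hc0 + b * h3
    refine hpm (-b) ?_ (q1 * q2 h3) y ((Q8 h3).mul_mem (q1_mem h3) (q2_mem h3)) ?_
    · intro hb0; apply f3; rw [hc0, ha0]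
      have : b = 0 := by linear_combination -hb0
      rw [this]; ring
    · rw [hyE, Units.val_mul, q1_val, q2_val, ha0, hc0]
      ext i j
      fin_cases i <;> fin_cases j <;> simp

theorem Q8_cases (h3 : (3 : F) = 0) (h2 : (2 : F) ≠ 0) {x : GL (Fin 2) F} (hx : x ∈ Q8 h3) :
    x = 1 ∨ x = -1 ∨ x * x = -1 := by
  rcases (Q8_egrp h3 h2).sq x hx with h | h
  swap
  · exact Or.inr (Or.inr h)
  have hdet := det_Q8 h3 hx
  have hy' : (x : Matrix (Fin 2) (Fin 2) F) * (x : Matrix (Fin 2) (Fin 2) F) = 1 := by rw [← Units.val_mul, h]; simp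
  obtain ⟨a, ha⟩ : ∃ a, (x : Matrix (Fin 2) (Fin 2) F) 0 0 = a := ⟨_, rfl⟩
  obtain ⟨b, hb⟩ : ∃ a, (x : Matrix (Fin 2) (Fin 2) F) 0 1 = a := ⟨_, rfl⟩
  obtain ⟨c, hc⟩ : ∃ a, (x : Matrix (Fin 2) (Fin 2) F) 1 0 = a := ⟨_, rfl⟩
  obtain ⟨d, hd⟩ : ∃ a, (x : Matrix (Fin 2) (Fin 2) F) 1 1 = a := ⟨_, rfl⟩
  have hyE := eq_of_entries ha hb hc hd
  rw [hyE] at hy' hdet
  rw [Matrix.det_fin_two_of] at hdet
  have e00 : a * a + b * c = 1 := by simpa using congrFun (congrFun hy' 0) 0
  have e01 : a * b + b * d = 0 := by simpa using congrFun (congrFun hy' 0) 1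
  have e10 : c * a + d * c = 0 := by simpa using congrFun (congrFun hy' 1) 0
  have hs : a + d ≠ 0 := by
    intro h0
    have : d = -a := by linear_combination h0
    rw [this] at hdet
    exact h2 (by linear_combination -e00 - hdet)
  have hb0 : b = 0 := (mul_eq_zero.1 (show b * (a + d) = 0 by linear_combination e01)).resolve_right hs
  have hc0 : c = 0 := (mul_eq_zero.1 (show c * (a + d) = 0 by linear_combination e10)).resolve_right hs
  rw [hb0, zero_mul, add_zero] at e00
  rw [hb0, zero_mul, sub_zero] at hdet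
  have hda : d = a := by
    have : a * (a * d) = a * 1 := by rw [hdet]
    linear_combination this - d * e00
  rcases mul_self_eq_one_iff.1 e00 with h1 | h1
  · left
    apply Units.ext
    rw [hyE, hb0, hc0, hda, h1]
    ext i j
    fin_cases i <;> fin_cases j <;> simp
  · right; left
    apply Units.ext
    rw [hyE, hb0, hc0, hda, h1]
    ext i j
    fin_cases i <;> fin_cases j <;> simp

/-- the quaternion group is normalised by everything -/
theorem Nrm.Q8 [Fintype F] (hq : Fintype.card F = 3) (h3 : (3 : F) = 0) (A : GL (Fin 2) F) : Nrm A (TwoGrp.Q8 h3) := by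
  intro x hx
  rcases Q8_cases h3 (three_field_two_ne hq) hx with h | h | h
  · rw [h, mul_one, mul_inv_cancel]; exact Subgroup.one_mem _
  · rw [h, mul_neg, mul_one, neg_mul, mul_inv_cancel]; exact neg_mem_Q8 h3
  · apply mem_Q8_of_sq hq h3
    calc A * x * A⁻¹ * (A * x * A⁻¹) = A * (x * x) * A⁻¹ := by group
      _ = -1 := by rw [h, mul_neg, mul_one, neg_mul, mul_inv_cancel]

/-- elements of determinant one preserve alternating forms -/
theorem alt_det {A : Matrix (Fin 2) (Fin 2) F} (s : F) : Aᵀ * !![0, s; -s, 0] * A = A.det • !![0, s; -s, 0] := by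
  rw [Matrix.det_fin_two]
  ext i j
  fin_cases i <;> fin_cases j <;> simp [Matrix.mul_apply, Fin.sum_univ_two] <;> ring

/-! ### The dihedral group -/

/-- the orthogonal group of the sum of two squares -/
def D8 (F : Type*) [Field F] : Subgroup (GL (Fin 2) F) where
  carrier := {x | (x : Matrix (Fin 2) (Fin 2) F)ᵀ * (x : Matrix (Fin 2) (Fin 2) F) = 1}
  mul_mem' := by
    intro x y hx hy
    show ((x * y : GL (Fin 2) F) : Matrix (Fin 2) (Fin 2) F)ᵀ * ((x * y : GL (Fin 2) F) : Matrix (Fin 2) (Fin 2) F) = 1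
    rw [Units.val_mul, Matrix.transpose_mul]
    calc (y : Matrix (Fin 2) (Fin 2) F)ᵀ * (x : Matrix (Fin 2) (Fin 2) F)ᵀ * ((x : Matrix (Fin 2) (Fin 2) F) * y) =
        (y : Matrix (Fin 2) (Fin 2) F)ᵀ * ((x : Matrix (Fin 2) (Fin 2) F)ᵀ * (x : Matrix (Fin 2) (Fin 2) F)) * y := by
          simp only [mul_assoc]
      _ = 1 := by rw [hx, mul_one, hy]
  one_mem' := by simp
  inv_mem' := by
    intro x hx
    have hx' : (x : Matrix (Fin 2) (Fin 2) F)ᵀ * (x : Matrix (Fin 2) (Fin 2) F) = 1 := hx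
    have h1 : (x : Matrix (Fin 2) (Fin 2) F)ᵀ = ((x⁻¹ : GL (Fin 2) F) : Matrix (Fin 2) (Fin 2) F) := by
      have h2 : (x : Matrix (Fin 2) (Fin 2) F) * ((x⁻¹ : GL (Fin 2) F) : Matrix (Fin 2) (Fin 2) F) = 1 := by
        rw [← Units.val_mul, mul_inv_cancel, Units.val_one]
      calc (x : Matrix (Fin 2) (Fin 2) F)ᵀ = (x : Matrix (Fin 2) (Fin 2) F)ᵀ * ((x : Matrix (Fin 2) (Fin 2) F) *
          ((x⁻¹ : GL (Fin 2) F) : Matrix (Fin 2) (Fin 2) F)) := by rw [h2, mul_one]
        _ = _ := by rw [← mul_assoc, hx', one_mul]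
    show (((x⁻¹ : GL (Fin 2) F) : Matrix (Fin 2) (Fin 2) F))ᵀ * ((x⁻¹ : GL (Fin 2) F) : Matrix (Fin 2) (Fin 2) F) = 1
    rw [← h1, Matrix.transpose_transpose, h1, ← Units.val_mul, mul_inv_cancel, Units.val_one]

theorem mem_D8 {x : GL (Fin 2) F} : x ∈ D8 F ↔ (x : Matrix (Fin 2) (Fin 2) F)ᵀ * (x : Matrix (Fin 2) (Fin 2) F) = 1 := Iff.rfl

theorem D8_cases [Fintype F] (hq : Fintype.card F = 3) {x : GL (Fin 2) F} (hx : x ∈ D8 F) :
    (∃ a d : F, a * a = 1 ∧ d * d = 1 ∧ (x : Matrix (Fin 2) (Fin 2) F) = !![a, 0; 0, d]) ∨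
    (∃ b c : F, b * b = 1 ∧ c * c = 1 ∧ (x : Matrix (Fin 2) (Fin 2) F) = !![0, b; c, 0]) := by
  have h2 := three_field_two_ne hq
  have h3 := three_field_three (F := F) hq
  have hsq : ∀ x : F, x ≠ 0 → x * x = 1 := by
    intro x hx
    rcases (three_field_cases hq x).resolve_left hx with rfl | rfl <;> ring
  have hy' := mem_D8.1 hx
  obtain ⟨a, ha⟩ : ∃ a, (x : Matrix (Fin 2) (Fin 2) F) 0 0 = a := ⟨_, rfl⟩
  obtain ⟨b, hb⟩ : ∃ a, (x : Matrix (Fin 2) (Fin 2) F) 0 1 = a := ⟨_, rfl⟩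
  obtain ⟨c, hc⟩ : ∃ a, (x : Matrix (Fin 2) (Fin 2) F) 1 0 = a := ⟨_, rfl⟩
  obtain ⟨d, hd⟩ : ∃ a, (x : Matrix (Fin 2) (Fin 2) F) 1 1 = a := ⟨_, rfl⟩
  have hyE := eq_of_entries ha hb hc hd
  rw [hyE] at hy'
  have e00 : a * a + c * c = 1 := by simpa [Matrix.mul_apply, Fin.sum_univ_two] using congrFun (congrFun hy' 0) 0
  have e01 : a * b + c * d = 0 := by simpa [Matrix.mul_apply, Fin.sum_univ_two] using congrFun (congrFun hy' 0) 1
  have e11 : b * b + d * d = 1 := by simpa [Matrix.mul_apply, Fin.sum_univ_two] using congrFun (congrFun hy' 1) 1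
  have hone : (1 : F) ≠ 0 := one_ne_zero
  by_cases hc0 : c = 0
  · left
    rw [hc0, mul_zero, add_zero] at e00
    have ha0 : a ≠ 0 := by rintro rfl; rw [mul_zero] at e00; exact hone e00.symm
    have hb0 : b = 0 := by
      rw [hc0, zero_mul, add_zero] at e01
      exact (mul_eq_zero.1 e01).resolve_left ha0
    rw [hb0, mul_zero, zero_add] at e11
    exact ⟨a, d, e00, e11, by rw [hyE, hb0, hc0]⟩
  · right
    have ha0 : a = 0 := by
      by_contra ha0
      rw [hsq a ha0, hsq c hc0] at e00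
      exact hone (by linear_combination e00)
    rw [ha0, zero_mul, zero_add] at e01 e00
    have hd0 : d = 0 := (mul_eq_zero.1 e01).resolve_left hc0
    rw [hd0, mul_zero, add_zero] at e11
    exact ⟨b, c, e11, e00, by rw [hyE, ha0, hd0]⟩

/-- `diag(1, -1)` -/
def cGL : GL (Fin 2) F where
  val := !![1, 0; 0, -1]
  inv := !![1, 0; 0, -1]
  val_inv := by ext i j; fin_cases i <;> fin_cases j <;> simp
  inv_val := by ext i j; fin_cases i <;> fin_cases j <;> simp

theorem cGL_val : ((cGL : GL (Fin 2) F) : Matrix (Fin 2) (Fin 2) F) = !![1, 0; 0, -1] := rfl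

theorem cGL_mem : cGL ∈ D8 F := by
  rw [mem_D8, cGL_val]
  ext i j
  fin_cases i <;> fin_cases j <;> simp [Matrix.mul_apply, Fin.sum_univ_two]

theorem q1_mem_D8 : q1 ∈ D8 F := by
  rw [mem_D8, q1_val]
  ext i j
  fin_cases i <;> fin_cases j <;> simp [Matrix.mul_apply, Fin.sum_univ_two]

theorem D8_egrp [Fintype F] (hq : Fintype.card F = 3) : EGrp (D8 F) where
  span := by
    have h2 := three_field_two_ne hq
    rw [eq_top_iff]
    intro T _
    set S := Submodule.span F (matrixSet (D8 F)) with hS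
    have m0 : (1 : Matrix (Fin 2) (Fin 2) F) ∈ S := Submodule.subset_span ⟨1, (D8 F).one_mem, rfl⟩
    have m1 : (!![0, 1; -1, 0] : Matrix (Fin 2) (Fin 2) F) ∈ S := Submodule.subset_span ⟨q1, q1_mem_D8, rfl⟩
    have m2 : (!![1, 0; 0, -1] : Matrix (Fin 2) (Fin 2) F) ∈ S := Submodule.subset_span ⟨cGL, cGL_mem, rfl⟩
    have m3 : (!![0, -1; -1, 0] : Matrix (Fin 2) (Fin 2) F) ∈ S := by
      refine Submodule.subset_span ⟨q1 * cGL, (D8 F).mul_mem q1_mem_D8 cGL_mem, ?_⟩
      show ((q1 * cGL : GL (Fin 2) F) : Matrix (Fin 2) (Fin 2) F) = _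
      rw [Units.val_mul, q1_val, cGL_val]
      ext i j
      fin_cases i <;> fin_cases j <;> simp
    have key : T = ((T 0 0 + T 1 1) / 2) • (1 : Matrix (Fin 2) (Fin 2) F) + ((T 0 1 - T 1 0) / 2) • !![0, 1; -1, 0] +
        ((T 0 0 - T 1 1) / 2) • !![1, 0; 0, -1] +
        (-(T 0 1 + T 1 0) / 2) • !![0, -1; -1, 0] := by
      ext i j
      fin_cases i <;> fin_cases j <;> simp <;> field_simp <;> ring
    rw [key]
    exact S.add_mem (S.add_mem (S.add_mem (S.smul_mem _ m0) (S.smul_mem _ m1)) (S.smul_mem _ m2)) (S.smul_mem _ m3)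
  comm := by
    intro x hx y hy
    have key : (x : Matrix (Fin 2) (Fin 2) F) * y = y * x ∨ (x : Matrix (Fin 2) (Fin 2) F) * y = -((y : Matrix (Fin 2) (Fin 2) F) * x) := by
      rcases D8_cases hq hx with ⟨a, d, ha, hd, hxE⟩ | ⟨b, c, hb, hc, hxE⟩ <;>
        rcases D8_cases hq hy with ⟨a', d', ha', hd', hyE⟩ | ⟨b', c', hb', hc', hyE⟩ <;> rw [hxE, hyE]
      · left
        ext i j
        fin_cases i <;> fin_cases j <;> simp [mul_comm]
      · rcases mul_self_eq_one_iff.1 ha with rfl | rfl <;> rcases mul_self_eq_one_iff.1 hd with rfl | rfl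
        · left; ext i j; fin_cases i <;> fin_cases j <;> simp
        · right; ext i j; fin_cases i <;> fin_cases j <;> simp
        · right; ext i j; fin_cases i <;> fin_cases j <;> simp
        · left; ext i j; fin_cases i <;> fin_cases j <;> simp
      · rcases mul_self_eq_one_iff.1 ha' with rfl | rfl <;> rcases mul_self_eq_one_iff.1 hd' with rfl | rfl
        · left; ext i j; fin_cases i <;> fin_cases j <;> simp
        · right; ext i j; fin_cases i <;> fin_cases j <;> simp
        · right; ext i j; fin_cases i <;> fin_cases j <;> simp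
        · left; ext i j; fin_cases i <;> fin_cases j <;> simp
      · rcases mul_self_eq_one_iff.1 hb with rfl | rfl <;> rcases mul_self_eq_one_iff.1 hc with rfl | rfl <;>
          rcases mul_self_eq_one_iff.1 hb' with rfl | rfl <;> rcases mul_self_eq_one_iff.1 hc' with rfl | rfl <;>
          first
          | (left; ext i j; fin_cases i <;> fin_cases j <;> simp; done)
          | (right; ext i j; fin_cases i <;> fin_cases j <;> simp; done)
    rcases key with h | h
    · left; exact Units.ext (by rw [Units.val_mul, Units.val_mul, h])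
    · right; exact Units.ext (by rw [Units.val_neg, Units.val_mul, Units.val_mul, h])
  sq := by
    intro x hx
    have key : (x : Matrix (Fin 2) (Fin 2) F) * x = 1 ∨ (x : Matrix (Fin 2) (Fin 2) F) * x = -1 := by
      rcases D8_cases hq hx with ⟨a, d, ha, hd, hxE⟩ | ⟨b, c, hb, hc, hxE⟩ <;> rw [hxE]
      · left
        ext i j
        fin_cases i <;> fin_cases j <;> simp [ha, hd]
      · rcases mul_self_eq_one_iff.1 hb with rfl | rfl <;> rcases mul_self_eq_one_iff.1 hc with rfl | rfl <;>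
          first
          | (left; ext i j; fin_cases i <;> fin_cases j <;> simp; done)
          | (right; ext i j; fin_cases i <;> fin_cases j <;> simp; done)
    rcases key with h | h
    · left; exact Units.ext (by rw [Units.val_mul, h, Units.val_one])
    · right; exact Units.ext (by rw [Units.val_mul, h, Units.val_neg, Units.val_one])
  neg := by
    rw [mem_D8]
    simp

/-- similarities normalise the dihedral group -/
theorem Nrm.D8 {z : GL (Fin 2) F} {ν : F} (hν : ν ≠ 0)
    (hz : (z : Matrix (Fin 2) (Fin 2) F)ᵀ * (z : Matrix (Fin 2) (Fin 2) F) = ν • (1 : Matrix (Fin 2) (Fin 2) F)) : Nrm z (TwoGrp.D8 F) := by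
  intro x hx
  rw [mem_D8] at hx ⊢
  set Z := (z : Matrix (Fin 2) (Fin 2) F) with hZ
  set W := ((z⁻¹ : GL (Fin 2) F) : Matrix (Fin 2) (Fin 2) F) with hW
  have hZW : Z * W = 1 := by rw [hZ, hW, ← Units.val_mul, mul_inv_cancel, Units.val_one]
  have hWZ : W * Z = 1 := by rw [hZ, hW, ← Units.val_mul, inv_mul_cancel, Units.val_one]
  -- `Wᵀ W = ν⁻¹`
  have h1 : Wᵀ * W = ν⁻¹ • (1 : Matrix (Fin 2) (Fin 2) F) := by
    have h2 : Wᵀ * (Zᵀ * Z) * W = 1 := by
      rw [← mul_assoc, ← Matrix.transpose_mul, hZW, Matrix.transpose_one, one_mul, hZW]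
    rw [hz, Matrix.mul_smul, Matrix.smul_mul, mul_one] at h2
    rw [← h2, smul_smul, inv_mul_cancel₀ hν, one_smul]
  rw [Units.val_mul, Units.val_mul, Matrix.transpose_mul, Matrix.transpose_mul]
  set X := (x : Matrix (Fin 2) (Fin 2) F)
  calc Wᵀ * (Xᵀ * Zᵀ) * (Z * X * W) = Wᵀ * (Xᵀ * (Zᵀ * Z) * X) * W := by simp only [mul_assoc]
    _ = ν • (Wᵀ * (Xᵀ * X) * W) := by rw [hz]; simp [mul_assoc]
    _ = 1 := by rw [hx, mul_one, h1, smul_smul, mul_inv_cancel₀ hν, one_smul]

end Cfsg.Agent.TwoGrp
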