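import Mathlib
import Cfsg.Agent.TwoGrp.Quat
import Cfsg.Agent.AschCases.FieldSub
import Cfsg.Agent.Orth.Classify

set_option autoImplicit false
set_option linter.unusedSectionVars false
set_option linter.style.haveILetI false

/-!
The normaliser of a unitary field of degree two in the symplectic group of dimension four over the field with three
elements normalises an extraspecial group.
-/

namespace Cfsg.Agent.TwoGrp

open Module Cfsg.Geo Cfsg.Agent.Asch Cfsg.Agent.Asch.Sympl Cfsg.Agent.AschCases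
open scoped Matrix MatrixGroups Kronecker

variable {ι : Type} [Fintype ι] [DecidableEq ι] {F : Type*} [Field F]

/-- a square root of `-1` in a field subalgebra of degree two over the field with three elements -/
theorem exists_root_neg_one [Nonempty ι] [Fintype F] (hq : Fintype.card F = 3) {K : Subalgebra F (Matrix ι ι F)}
    (hK : IsFieldSubalgebra 2 K) : ∃ i ∈ K, i * i = -1 := by
  letI := fieldOf hK
  haveI : Module.Finite F K := by
    apply Module.finite_of_finrank_pos
    rw [hK.finrank_eq]; norm_num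
  haveI : Finite K := Module.finite_of_finite F
  letI := Fintype.ofFinite K
  have hcard : Fintype.card K = 9 := by
    rw [Module.card_eq_pow_finrank (K := F) (V := K), hq, hK.finrank_eq]
    norm_num
  have h1 : IsSquare (-1 : K) := by
    rw [FiniteField.isSquare_neg_one_iff, hcard]
    norm_num
  obtain ⟨y, hy⟩ := h1
  exact ⟨y, y.2, (congrArg Subtype.val hy).symm⟩

theorem eq_or_neg [Nonempty ι] {r : ℕ} {K : Subalgebra F (Matrix ι ι F)} (hK : IsFieldSubalgebra r K)
    {i x : Matrix ι ι F} (hi : i ∈ K) (hx : x ∈ K) (h1 : i * i = -1) (h2 : x * x = -1) : x = i ∨ x = -i := by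
  have h3 : (x - i) * (x + i) = 0 := by
    have := hK.comm x hx i hi
    rw [sub_mul, mul_add, mul_add, h1, h2, this]
    abel
  by_cases h4 : x + i = 0
  · right; exact eq_neg_of_add_eq_zero_left h4
  · left
    obtain ⟨y, hy, hxy⟩ := hK.inv (x + i) (K.add_mem hx hi) h4
    have h5 : (x - i) * (x + i) * y = 0 := by rw [h3, zero_mul]
    rw [mul_assoc, hxy, mul_one] at h5
    exact sub_eq_zero.1 h5

/-- the data of a unitary field -/
theorem exists_uni_root [Nonempty ι] [Fintype F] (hq : Fintype.card F = 3) {f : (ι → F) → (ι → F) → F}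
    (hf : IsSymplecticForm f) {K : Subalgebra F (Matrix ι ι F)} (hK : IsFieldSubalgebra 2 K)
    (hadj : IsAdjointClosedFor f K) (hself : ¬ IsSelfAdjointFor f K) :
    ∃ i : Matrix ι ι F, i * i = -1 ∧ (∀ u v, f (i *ᵥ u) v = - f u (i *ᵥ v)) ∧
      ∀ g ∈ subalgebraNormalizer K, (g : Matrix ι ι F) * i = i * g ∨ (g : Matrix ι ι F) * i = - (i * g) := by
  obtain ⟨i, hi, hi2⟩ := exists_root_neg_one hq hK
  have hs := isSesq_of_bilinear hf.bilinear
  have hneg : ∀ u v, f u (-v) = - f u v := by
    intro u v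
    have := hf.bilinear.smul_right (-1) u v
    rwa [neg_one_smul, neg_one_mul] at this
  have hnegl : ∀ u v, f (-u) v = - f u v := by
    intro u v
    have := hf.bilinear.smul_left (-1) u v
    rwa [neg_one_smul, neg_one_mul] at this
  obtain ⟨j, hj, hij⟩ := hadj i hi
  have hj2 : j * j = -1 := by
    have h1 : ∀ v, (j * j + 1) *ᵥ v = 0 := by
      intro v
      by_contra h0
      obtain ⟨⟨x, hx⟩, -⟩ := hf.nondegenerate _ h0
      apply hx
      rw [Matrix.add_mulVec, hf.bilinear.add_right, ← Matrix.mulVec_mulVec, ← hij, ← hij, Matrix.mulVec_mulVec, hi2,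
        Matrix.neg_mulVec, Matrix.one_mulVec, Matrix.one_mulVec, hnegl, neg_add_cancel]
    have h2 : j * j + 1 = 0 := by
      apply Matrix.ext_of_mulVec_single
      intro a
      rw [h1, Matrix.zero_mulVec]
    exact eq_neg_of_add_eq_zero_left h2
  refine ⟨i, hi2, ?_, ?_⟩
  · rcases eq_or_neg hK hi hj hi2 hj2 with h | h
    · exfalso
      apply hself
      -- `K` is spanned by `1` and `i`
      have h2 := three_field_two_ne hq
      have hns : ∀ c : F, i ≠ c • 1 := by
        intro c hc
        rw [hc] at hi2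
        obtain ⟨a⟩ := (inferInstance : Nonempty ι)
        have h3 := congrFun (congrFun hi2 a) a
        simp only [Matrix.mul_smul, mul_one, Matrix.smul_apply, Matrix.one_apply_eq, smul_eq_mul,
          Matrix.neg_apply] at h3
        rcases three_field_cases hq c with h4 | h4 | h4 <;> rw [h4] at h3
        · exact one_ne_zero (α := F) (by linear_combination h3)
        · exact h2 (by linear_combination h3)
        · exact h2 (by linear_combination h3)
      intro k hk
      obtain ⟨a, b, rfl⟩ : ∃ a b : F, k = a • (1 : Matrix ι ι F) + b • i := by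
        have hli : LinearIndependent F ![(1 : K), ⟨i, hi⟩] := by
          rw [LinearIndependent.pair_iff]
          intro s t hst
          have hst' : s • (1 : Matrix ι ι F) + t • i = 0 := congrArg Subtype.val hst
          by_cases ht : t = 0
          · rw [ht, zero_smul, add_zero] at hst'
            refine ⟨?_, ht⟩
            obtain ⟨a⟩ := (inferInstance : Nonempty ι)
            have h3 := congrFun (congrFun hst' a) a
            simpa using h3
          · exfalso
            apply hns (-(t⁻¹ * s))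
            have h5 : t • i = -(s • (1 : Matrix ι ι F)) := eq_neg_of_add_eq_zero_right hst'
            calc i = t⁻¹ • (t • i) := by rw [smul_smul, inv_mul_cancel₀ ht, one_smul]
              _ = _ := by rw [h5, smul_neg, smul_smul, neg_smul]
        have hspan := hli.span_eq_top_of_card_eq_finrank' (by rw [hK.finrank_eq]; rfl)
        have hk' : (⟨k, hk⟩ : K) ∈ Submodule.span F (Set.range ![(1 : K), ⟨i, hi⟩]) := by rw [hspan]; trivial
        rw [Matrix.range_cons, Matrix.range_cons, Matrix.range_empty, Set.union_empty] at hk'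
        rw [Set.singleton_union, Submodule.mem_span_pair] at hk'
        obtain ⟨a, b, hab⟩ := hk'
        exact ⟨a, b, (congrArg Subtype.val hab).symm⟩
      intro u v
      rw [Matrix.add_mulVec, Matrix.add_mulVec, Matrix.smul_mulVec, Matrix.smul_mulVec, Matrix.smul_mulVec, Matrix.smul_mulVec,
        Matrix.one_mulVec, Matrix.one_mulVec, hf.bilinear.add_left, hf.bilinear.add_right, hf.bilinear.smul_left,
        hf.bilinear.smul_left, hf.bilinear.smul_right, hf.bilinear.smul_right, hij, h]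
    · intro u v
      rw [hij, h, Matrix.neg_mulVec, hneg]
  · intro g hg
    have h1 : (g : Matrix ι ι F) * i * ((g⁻¹ : GL ι F) : Matrix ι ι F) ∈ K := (hg i).1 hi
    have e1 : ((g⁻¹ : GL ι F) : Matrix ι ι F) * (g : Matrix ι ι F) = 1 := by
      rw [← Units.val_mul, inv_mul_cancel, Units.val_one]
    have e2 : (g : Matrix ι ι F) * ((g⁻¹ : GL ι F) : Matrix ι ι F) = 1 := by
      rw [← Units.val_mul, mul_inv_cancel, Units.val_one]
    have h2 : (g : Matrix ι ι F) * i * ((g⁻¹ : GL ι F) : Matrix ι ι F) * ((g : Matrix ι ι F) * i * ((g⁻¹ : GL ι F) : Matrix ι ι F)) = -1 := by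
      calc _ = (g : Matrix ι ι F) * i * (((g⁻¹ : GL ι F) : Matrix ι ι F) * (g : Matrix ι ι F)) * i * ((g⁻¹ : GL ι F) : Matrix ι ι F) := by
            simp only [mul_assoc]
        _ = (g : Matrix ι ι F) * (i * i) * ((g⁻¹ : GL ι F) : Matrix ι ι F) := by rw [e1]; simp only [mul_assoc, one_mul]
        _ = -1 := by rw [hi2, mul_neg, mul_one, neg_mul, e2]
    have h3 : (g : Matrix ι ι F) * i = ((g : Matrix ι ι F) * i * ((g⁻¹ : GL ι F) : Matrix ι ι F)) * g := by
      rw [mul_assoc, e1, mul_one]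
    rcases eq_or_neg hK hi h1 hi2 h2 with h | h
    · left; rw [h3, h]
    · right; rw [h3, h, neg_mul]

/-- coordinates with a given invertible Gram matrix -/
theorem exists_coords {κ : Type} [Fintype κ] [DecidableEq κ] {f : (ι → F) → (ι → F) → F} (hf : IsBilinearForm f)
    (e : κ → (ι → F)) (G : Matrix κ κ F) (hG : ∀ a b, f (e a) (e b) = G a b) (hdet : G.det ≠ 0)
    (hcard : Fintype.card κ = Fintype.card ι) :
    ∃ Φ : (κ → F) ≃ₗ[F] (ι → F), (∀ X, Φ X = ∑ a, X a • e a) ∧ (∀ X Y, f (Φ X) (Φ Y) = X ⬝ᵥ (G *ᵥ Y)) := by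
  have hs := isSesq_of_bilinear hf
  have hform : ∀ X Y : κ → F, f (∑ a, X a • e a) (∑ a, Y a • e a) = X ⬝ᵥ (G *ᵥ Y) := by
    intro X Y
    rw [hs.sum_left, dotProduct]
    refine Finset.sum_congr rfl fun a _ => ?_
    rw [hs.sum_right, Matrix.mulVec, dotProduct, Finset.mul_sum]
    refine Finset.sum_congr rfl fun b _ => ?_
    rw [hf.smul_left, hf.smul_right, hG]
    ring
  let L : (κ → F) →ₗ[F] (ι → F) := ∑ a, (LinearMap.proj a).smulRight (e a)
  have hL : ∀ X, L X = ∑ a, X a • e a := by
    intro X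
    simp [L, LinearMap.sum_apply]
  have hinj : Function.Injective L := by
    rw [← LinearMap.ker_eq_bot, LinearMap.ker_eq_bot']
    intro X hX
    have hunit : IsUnit G.det := isUnit_iff_ne_zero.2 hdet
    funext a
    have h1 := hform X (G⁻¹ *ᵥ Pi.single a 1)
    rw [← hL X, hX, hs.zero_left, Matrix.mulVec_mulVec, Matrix.mul_nonsing_inv _ hunit, Matrix.one_mulVec] at h1
    rw [dotProduct_single, mul_one] at h1
    exact h1.symm
  have hfr : finrank F (κ → F) = finrank F (ι → F) := by
    rw [finrank_fintype_fun_eq_card, finrank_fintype_fun_eq_card, hcard]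
  refine ⟨LinearMap.linearEquivOfInjective L hinj hfr, fun X => ?_, fun X Y => ?_⟩
  · rw [LinearMap.linearEquivOfInjective_apply, hL]
  · rw [LinearMap.linearEquivOfInjective_apply, LinearMap.linearEquivOfInjective_apply, hL, hL, hform]

/-- the standard symplectic matrix in dimension two -/
def S2 (F : Type*) [Field F] : Matrix (Fin 2) (Fin 2) F := !![0, 1; -1, 0]

/-- coordinates adapted to `i` -/
theorem exists_uni_basis [Fintype F] (hq : Fintype.card F = 3) (hc : Fintype.card ι = 4) {f : (ι → F) → (ι → F) → F}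
    (hf : IsSymplecticForm f) {i : Matrix ι ι F} (hi : i * i = -1) (hadj : ∀ u v, f (i *ᵥ u) v = - f u (i *ᵥ v)) :
    ∃ Φ : (Fin 2 × Fin 2 → F) ≃ₗ[F] (ι → F), (∀ X Y, f (Φ X) (Φ Y) = X ⬝ᵥ ((S2 F ⊗ₖ (1 : Matrix (Fin 2) (Fin 2) F)) *ᵥ Y)) ∧
      ∀ X, i *ᵥ (Φ X) = Φ (((1 : Matrix (Fin 2) (Fin 2) F) ⊗ₖ !![0, -1; 1, 0]) *ᵥ X) := by
  have h2 := three_field_two_ne hq
  have hs := isSesq_of_bilinear hf.bilinear
  have hneg : ∀ u v, f u (-v) = - f u v := by
    intro u v
    have := hf.bilinear.smul_right (-1) u v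
    rwa [neg_one_smul, neg_one_mul] at this
  have hii : ∀ v : ι → F, i *ᵥ (i *ᵥ v) = -v := by
    intro v
    rw [Matrix.mulVec_mulVec, hi, Matrix.neg_mulVec, Matrix.one_mulVec]
  -- isotropic vector
  obtain ⟨v, hv0, hv⟩ : ∃ v : ι → F, v ≠ 0 ∧ f v (i *ᵥ v) = 0 := by
    let B : LinearMap.BilinForm F (ι → F) := LinearMap.mk₂ F (fun u v => f u (i *ᵥ v)) (fun u u' v => hf.bilinear.add_left _ _ _)
      (fun c u v => hf.bilinear.smul_left _ _ _)
      (fun u v v' => by rw [Matrix.mulVec_add, hf.bilinear.add_right])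
      (fun c u v => by rw [Matrix.mulVec_smul, hf.bilinear.smul_right]; rfl)
    have hB : ∀ u v, B u v = f u (i *ᵥ v) := fun _ _ => rfl
    have hsym : ∀ u v, B u v = B v u := by
      intro u v
      rw [hB, hB, ← neg_inj, ← hadj, hf.skew]
    let Q : QuadraticForm F (ι → F) := LinearMap.BilinMap.toQuadraticMap B
    have hQ : ∀ u, Q u = f u (i *ᵥ u) := fun _ => rfl
    have hpol : ∀ u v, QuadraticMap.polar Q u v = 2 * B u v := by
      intro u v
      rw [QuadraticMap.polar, hQ, hQ, hQ, ← hB, ← hB, ← hB, map_add, map_add, LinearMap.add_apply, LinearMap.add_apply, hsym v u]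
      ring
    have hnd : (QuadraticMap.polarBilin Q).Nondegenerate := by
      have key : ∀ u : ι → F, (∀ v, QuadraticMap.polar Q u v = 0) → u = 0 := by
        intro u hu
        by_contra h0
        obtain ⟨-, x, hx⟩ := hf.nondegenerate u h0
        apply hx
        have h3 := hu (-(i *ᵥ x))
        rw [hpol, hB, Matrix.mulVec_neg, hii, neg_neg] at h3
        exact (mul_eq_zero.1 h3).resolve_left h2
      refine ⟨fun u hu => key u hu, fun u hu => key u fun v => ?_⟩
      rw [QuadraticMap.polar_comm]; exact hu v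
    obtain ⟨v, hv, hv'⟩ := Cfsg.Agent.Orth.exists_singular hnd (by rw [finrank_fintype_fun_eq_card, hc]; norm_num)
    exact ⟨v, hv, hv'⟩
  -- the partner
  obtain ⟨w, hw1, hw2⟩ : ∃ w : ι → F, f v w = 1 ∧ f v (i *ᵥ w) = 0 := by
    obtain ⟨-, x, hx⟩ := hf.nondegenerate v hv0
    set a := f v x with ha
    set b := f v (i *ᵥ x) with hb
    have hab : a * a + b * b ≠ 0 := by
      intro h0
      have hsq : ∀ x : F, x ≠ 0 → x * x = 1 := by
        intro x hx
        rcases (three_field_cases hq x).resolve_left hx with rfl | rfl <;> ring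
      rw [hsq a hx] at h0
      by_cases hb0 : b = 0
      · rw [hb0] at h0
        exact one_ne_zero (α := F) (by linear_combination h0)
      · rw [hsq b hb0] at h0
        exact h2 (by linear_combination h0)
    refine ⟨(a * a + b * b)⁻¹ • (a • x + b • (i *ᵥ x)), ?_, ?_⟩
    · rw [hf.bilinear.smul_right, hf.bilinear.add_right, hf.bilinear.smul_right, hf.bilinear.smul_right, ← ha, ← hb,
        inv_mul_cancel₀ hab]
    · rw [Matrix.mulVec_smul, Matrix.mulVec_add, Matrix.mulVec_smul, Matrix.mulVec_smul, hii, hf.bilinear.smul_right,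
        hf.bilinear.add_right, hf.bilinear.smul_right, hf.bilinear.smul_right, hneg, ← ha, ← hb]
      ring
  have hvv : f v v = 0 := hf.alternating v
  have hwv : f w v = -1 := by rw [hf.skew, hw1]
  have hiv : f (i *ᵥ v) v = 0 := by rw [hadj, hv, neg_zero]
  have hiviw : f (i *ᵥ v) (i *ᵥ w) = 1 := by rw [hadj, hii, hneg, neg_neg, hw1]
  obtain ⟨w', hw1', hw2', hw3'⟩ : ∃ w : ι → F, f v w = 1 ∧ f v (i *ᵥ w) = 0 ∧ f w (i *ᵥ w) = 0 := by
    set c := f w (i *ᵥ w) with hc
    refine ⟨w + (-(c / 2)) • (i *ᵥ v), ?_, ?_, ?_⟩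
    · rw [hf.bilinear.add_right, hf.bilinear.smul_right, hv, hw1]; ring
    · rw [Matrix.mulVec_add, Matrix.mulVec_smul, hii, hf.bilinear.add_right, hf.bilinear.smul_right, hneg, hvv, hw2]; ring
    · rw [Matrix.mulVec_add, Matrix.mulVec_smul, hii, hf.bilinear.add_right, hf.bilinear.add_left, hf.bilinear.smul_right,
        hf.bilinear.add_left, hf.bilinear.smul_left, hf.bilinear.smul_left, hneg, hneg, hwv, hiviw, hiv, ← hc]
      field_simp
      ring
  have hw'v : f w' v = -1 := by rw [hf.skew, hw1']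
  have hw'iv : f w' (i *ᵥ v) = 0 := by rw [hf.skew, hadj, hw2', neg_zero, neg_zero]
  have hivw' : f (i *ᵥ v) w' = 0 := by rw [hadj, hw2', neg_zero]
  have hiviw' : f (i *ᵥ v) (i *ᵥ w') = 1 := by rw [hadj, hii, hneg, neg_neg, hw1']
  have hiw'w' : f (i *ᵥ w') w' = 0 := by rw [hadj, hw3', neg_zero]
  have hiw'v : f (i *ᵥ w') v = 0 := by rw [hf.skew, hw2', neg_zero]
  have hiw'iv : f (i *ᵥ w') (i *ᵥ v) = -1 := by rw [hf.skew, hiviw']
  have hww' : f w' w' = 0 := hf.alternating _
  have hiviv : f (i *ᵥ v) (i *ᵥ v) = 0 := hf.alternating _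
  have hiw'iw' : f (i *ᵥ w') (i *ᵥ w') = 0 := hf.alternating _
  obtain ⟨Φ, hΦ1, hΦ2⟩ := exists_coords (κ := Fin 2 × Fin 2) hf.bilinear
    (fun p => ![![v, i *ᵥ v], ![w', i *ᵥ w']] p.1 p.2) (S2 F ⊗ₖ (1 : Matrix (Fin 2) (Fin 2) F)) (by
      rintro ⟨a, b⟩ ⟨c, d⟩
      fin_cases a <;> fin_cases b <;> fin_cases c <;> fin_cases d <;>
        simp [S2, hvv, hiv, hw1', hw2', hw3', hw'v, hw'iv, hivw', hiviw', hiw'w', hiw'v, hiw'iv, hww', hiviv, hiw'iw', hv]) (by
      rw [Matrix.det_kronecker]
      simp [S2, Matrix.det_fin_two_of]) (by rw [hc]; simp)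
  refine ⟨Φ, hΦ2, fun X => ?_⟩
  rw [hΦ1, hΦ1, Fintype.sum_prod_type, Fintype.sum_prod_type]
  have hM : ∀ a b, (((1 : Matrix (Fin 2) (Fin 2) F) ⊗ₖ !![0, -1; 1, 0]) *ᵥ X) (a, b) = ![- X (a, 1), X (a, 0)] b := by
    intro a b
    rw [Matrix.mulVec, dotProduct, Fintype.sum_prod_type]
    fin_cases a <;> fin_cases b <;> simp [Matrix.kroneckerMap_apply, Fin.sum_univ_two]
  simp only [Fin.sum_univ_two, Matrix.mulVec_add, Matrix.mulVec_smul, hM]
  simp only [Fin.isValue, Matrix.cons_val_zero, Matrix.cons_val_one, hii]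
  module

end Cfsg.Agent.TwoGrp
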