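import Mathlib
import Cfsg.Agent.TwoGrp.UniK
import Cfsg.Agent.TwoGrp.Kron
import Cfsg.Agent.TwoGrp.DetPres
import Cfsg.Agent.AschCases.TensForm
import Cfsg.Agent.AschCases.Lin

set_option autoImplicit false
set_option linter.unusedSectionVars false
set_option linter.unusedSimpArgs false

/-!
Four-dimensional quadratic spaces of plus type as tensor products of symplectic planes.
-/

namespace Cfsg.Agent.TwoGrp

open Module Cfsg.Geo Cfsg.Agent.Asch Cfsg.Agent.Asch.Sympl Cfsg.Agent.AschCases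
open scoped Matrix MatrixGroups Kronecker

variable {ι : Type} [Fintype ι] [DecidableEq ι] {F : Type*} [Field F]

/-- vectors dual to independent vectors -/
theorem exists_dual_vectors {k : ℕ} {f : (ι → F) → (ι → F) → F} (hf : IsBilinearForm f) (hnd : IsNondegenerateForm f)
    {u : Fin k → (ι → F)} (hu : LinearIndependent F u) :
    ∃ w : Fin k → (ι → F), ∀ i j, f (u i) (w j) = if i = j then 1 else 0 := by
  have hs := isSesq_of_bilinear hf
  let L : (ι → F) →ₗ[F] (Fin k → F) :=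
    { toFun := fun v i => f (u i) v
      map_add' := fun x y => by funext i; exact hf.add_right _ _ _
      map_smul' := fun c x => by funext i; exact hf.smul_right _ _ _ }
  have hsurj : Function.Surjective L := by
    rw [← LinearMap.range_eq_top]
    by_contra hne
    obtain ⟨φ, hφ, hker⟩ := Submodule.exists_le_ker_of_lt_top _ (lt_top_iff_ne_top.2 hne)
    apply hφ
    have h0 : ∑ i, φ (Pi.single i 1) • u i = 0 := by
      by_contra hx
      obtain ⟨-, ⟨y, hy⟩⟩ := hnd _ hx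
      apply hy
      rw [hs.sum_left]
      have h1 : φ (L y) = 0 := hker ⟨y, rfl⟩
      have h2 : L y = ∑ i, (L y i) • (Pi.single i (1 : F) : Fin k → F) := by
        ext j; simp [Pi.single_apply]
      rw [h2, map_sum] at h1
      rw [← h1]
      refine Finset.sum_congr rfl fun i _ => ?_
      rw [hf.smul_left, map_smul, smul_eq_mul, mul_comm]
      rfl
    rw [Fintype.linearIndependent_iff] at hu
    have h1 := hu _ h0
    apply LinearMap.pi_ext'
    intro i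
    ext
    simpa using h1 i
  choose w hw using hsurj
  refine ⟨fun j => w (Pi.single j 1), fun i j => ?_⟩
  have := congrFun (hw (Pi.single j 1)) i
  show L (w (Pi.single j 1)) i = _
  rw [this, Pi.single_apply]

/-- coordinates of a plus type space -/
theorem exists_plus_coords (hc : Fintype.card ι = 4) (h2 : (2 : F) ≠ 0) {f : (ι → F) → (ι → F) → F} (hf : IsSymmetricForm f)
    (hp : IsPlusTypeOn (fun v => f v v) ⊤) :
    ∃ Ψ : (Fin 2 × Fin 2 → F) ≃ₗ[F] (ι → F), ∀ X Y, f (Ψ X) (Ψ Y) = X ⬝ᵥ ((S2 F ⊗ₖ S2 F) *ᵥ Y) := by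
  obtain ⟨U, -, hU, hfin⟩ := hp
  have hU2 : finrank F U = 2 := by
    rw [finrank_top, finrank_fintype_fun_eq_card, hc] at hfin
    omega
  have hts : ∀ x ∈ U, ∀ y ∈ U, f x y = 0 := by
    intro x hx y hy
    have e1 : f (x + y) (x + y) = 0 := hU _ (U.add_mem hx hy)
    have e2 : f x x = 0 := hU _ hx
    have e3 : f y y = 0 := hU _ hy
    rw [hf.bilinear.add_left, hf.bilinear.add_right, hf.bilinear.add_right, hf.symm y x] at e1
    have : (2 : F) * f x y = 0 := by linear_combination e1 - e2 - e3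
    exact (mul_eq_zero.1 this).resolve_left h2
  set b := finBasisOfFinrankEq F U hU2 with hb
  set u : Fin 2 → (ι → F) := fun i => (b i : ι → F) with hu
  have huU : ∀ i, u i ∈ U := fun i => (b i).2
  have hli : LinearIndependent F u := b.linearIndependent.map' U.subtype (by simp)
  obtain ⟨w', hw'⟩ := exists_dual_vectors hf.bilinear hf.nondegenerate hli
  have huu : ∀ i j, f (u i) (u j) = 0 := fun i j => hts _ (huU i) _ (huU j)
  have hw'' : ∀ i j, f (w' i) (u j) = if j = i then 1 else 0 := fun i j => by rw [hf.symm, hw']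
  obtain ⟨u0, hu0⟩ : ∃ a, u 0 = a := ⟨_, rfl⟩
  obtain ⟨u1, hu1⟩ : ∃ a, u 1 = a := ⟨_, rfl⟩
  obtain ⟨v0, hv0⟩ : ∃ a, w' 0 = a := ⟨_, rfl⟩
  obtain ⟨v1, hv1⟩ : ∃ a, w' 1 = a := ⟨_, rfl⟩
  have a00 := huu 0 0
  have a01 := huu 0 1
  have a10 := huu 1 0
  have a11 := huu 1 1
  have b00 := hw' 0 0
  have b01 := hw' 0 1
  have b10 := hw' 1 0
  have b11 := hw' 1 1
  have c00 := hw'' 0 0
  have c01 := hw'' 0 1
  have c10 := hw'' 1 0
  have c11 := hw'' 1 1
  rw [hu0] at a00 a01 a10 b00 b01 c00 c10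
  rw [hu1] at a01 a10 a11 b10 b11 c01 c11
  rw [hv0] at b00 b10 c00 c01
  rw [hv1] at b01 b11 c10 c11
  simp only [Fin.isValue, ↓reduceIte, one_ne_zero, zero_ne_one] at b00 b01 b10 b11 c00 c01 c10 c11
  -- corrected vectors
  obtain ⟨w0, hw0⟩ : ∃ w0, w0 = v0 + (-(f v0 v0) / 2) • u0 := ⟨_, rfl⟩
  have d1 : f w0 w0 = 0 := by
    rw [hw0]
    simp only [hf.bilinear.add_left, hf.bilinear.add_right, hf.bilinear.smul_left, hf.bilinear.smul_right, a00, b00, c00]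
    field_simp
    ring
  have d2 : f u0 w0 = 1 := by
    rw [hw0, hf.bilinear.add_right, hf.bilinear.smul_right, a00, b00]; ring
  have d3 : f u1 w0 = 0 := by
    rw [hw0, hf.bilinear.add_right, hf.bilinear.smul_right, a10, b10]; ring
  have d4 : f w0 u0 = 1 := by rw [hf.symm]; exact d2
  have d5 : f w0 u1 = 0 := by rw [hf.symm]; exact d3
  obtain ⟨w1, hw1⟩ : ∃ w1, w1 = v1 + (-(f v1 v1) / 2) • u1 + (- f w0 v1) • u0 := ⟨_, rfl⟩
  have e1 : f w0 w1 = 0 := by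
    rw [hw1]
    simp only [hf.bilinear.add_right, hf.bilinear.smul_right, d4, d5]
    ring
  have e2 : f u0 w1 = 0 := by
    rw [hw1]
    simp only [hf.bilinear.add_right, hf.bilinear.smul_right, a00, a01, b01]
    ring
  have e3 : f u1 w1 = 1 := by
    rw [hw1]
    simp only [hf.bilinear.add_right, hf.bilinear.smul_right, a10, a11, b11]
    ring
  have e4 : f w1 w1 = 0 := by
    rw [hw1]
    simp only [hf.bilinear.add_left, hf.bilinear.add_right, hf.bilinear.smul_left, hf.bilinear.smul_right,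
      a00, a01, a10, a11, b01, b11, c10, c11]
    field_simp
    ring
  have e5 : f w1 w0 = 0 := by rw [hf.symm]; exact e1
  have e6 : f w1 u0 = 0 := by rw [hf.symm]; exact e2
  have e7 : f w1 u1 = 1 := by rw [hf.symm]; exact e3
  have hnr : ∀ x y, f x (-y) = - f x y := by
    intro x y
    have := hf.bilinear.smul_right (-1) x y
    rwa [neg_one_smul, neg_one_mul] at this
  have hnl : ∀ x y, f (-x) y = - f x y := by
    intro x y
    have := hf.bilinear.smul_left (-1) x y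
    rwa [neg_one_smul, neg_one_mul] at this
  obtain ⟨Φ, hΦ1, hΦ2⟩ := exists_coords (κ := Fin 2 × Fin 2) hf.bilinear
    (fun p => ![![u0, u1], ![-w1, w0]] p.1 p.2) (S2 F ⊗ₖ S2 F) (by
      rintro ⟨a, b⟩ ⟨c, d⟩
      fin_cases a <;> fin_cases b <;> fin_cases c <;> fin_cases d <;>
        simp [S2, hnr, hnl, a00, a01, a10, a11, d1, d2, d3, d4, d5, e1, e2, e3, e4, e5, e6, e7]) (by
      rw [Matrix.det_kronecker]
      simp [S2, Matrix.det_fin_two_of]) (by rw [hc]; simp)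
  exact ⟨Φ, hΦ2⟩

/-- the quadratic form of `S ⊗ S` is twice the determinant -/
theorem s2s2_self (x : Fin 2 × Fin 2 → F) :
    x ⬝ᵥ ((S2 F ⊗ₖ S2 F) *ᵥ x) = 2 * (Matrix.of fun i j => x (i, j) : Matrix (Fin 2) (Fin 2) F).det := by
  rw [Matrix.det_fin_two]
  simp [dotProduct, Matrix.mulVec, Fintype.sum_prod_type, Fin.sum_univ_two, S2, Matrix.kroneckerMap_apply]
  ring

theorem kron_two_mulVec (A B : Matrix (Fin 2) (Fin 2) F) (x : Fin 2 × Fin 2 → F) (i j : Fin 2) :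
    ((A ⊗ₖ B) *ᵥ x) (i, j) = (A * (Matrix.of fun i j => x (i, j)) * Bᵀ) i j := by
  simp [Matrix.mulVec, dotProduct, Fintype.sum_prod_type, Fin.sum_univ_two, Matrix.kroneckerMap_apply, Matrix.mul_apply]
  ring

/-- similarities of `S ⊗ S` -/
theorem sim_s2s2 (h2 : (2 : F) ≠ 0) {B : GL (Fin 2 × Fin 2) F} {μ : F} (hμ : μ ≠ 0)
    (hB : ∀ x, ((B : Matrix (Fin 2 × Fin 2) (Fin 2 × Fin 2) F) *ᵥ x) ⬝ᵥ
      ((S2 F ⊗ₖ S2 F) *ᵥ ((B : Matrix (Fin 2 × Fin 2) (Fin 2 × Fin 2) F) *ᵥ x)) = μ * (x ⬝ᵥ ((S2 F ⊗ₖ S2 F) *ᵥ x))) :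
    ∃ a b : GL (Fin 2) F, B = kronHom (a, b) ∨ B = kronHom (a, b) * swapGL := by
  let mt : (Fin 2 × Fin 2 → F) ≃ₗ[F] Matrix (Fin 2) (Fin 2) F :=
    { toFun := fun x => Matrix.of fun i j => x (i, j)
      invFun := fun X p => X p.1 p.2
      map_add' := fun x y => rfl
      map_smul' := fun c x => rfl
      left_inv := fun x => rfl
      right_inv := fun X => rfl }
  have hmt : ∀ x, mt x = Matrix.of fun i j => x (i, j) := fun x => rfl
  let φ : Matrix (Fin 2) (Fin 2) F →ₗ[F] Matrix (Fin 2) (Fin 2) F :=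
    (mt : (Fin 2 × Fin 2 → F) →ₗ[F] Matrix (Fin 2) (Fin 2) F) ∘ₗ
      (Matrix.mulVecLin (B : Matrix (Fin 2 × Fin 2) (Fin 2 × Fin 2) F)) ∘ₗ (mt.symm : Matrix (Fin 2) (Fin 2) F →ₗ[F] (Fin 2 × Fin 2 → F))
  have hφ : ∀ x, φ (mt x) = mt ((B : Matrix (Fin 2 × Fin 2) (Fin 2 × Fin 2) F) *ᵥ x) := fun x => rfl
  obtain ⟨a, b, hab⟩ := det_pres (φ := φ) hμ (fun X => by
    obtain ⟨x, rfl⟩ := mt.surjective X
    have h := hB x
    rw [s2s2_self, s2s2_self, ← hmt, ← hmt, ← hφ] at h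
    apply mul_left_cancel₀ h2
    rw [h]; ring)
  have hbT : IsUnit ((b : Matrix (Fin 2) (Fin 2) F)ᵀ).det := by
    rw [Matrix.det_transpose]
    exact (Matrix.isUnit_iff_isUnit_det _).1 b.isUnit
  refine ⟨a, Matrix.GeneralLinearGroup.mk'' (b : Matrix (Fin 2) (Fin 2) F)ᵀ hbT, ?_⟩
  rcases hab with hab | hab
  · left
    apply ext_mulVec
    intro x
    funext ⟨i, j⟩
    rw [kronHom_val, kron_two_mulVec]
    have := congrFun (congrFun (hab (mt x)) i) j
    rw [hφ, hmt, hmt] at this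
    exact this
  · right
    apply ext_mulVec
    intro x
    funext ⟨i, j⟩
    rw [Units.val_mul, ← Matrix.mulVec_mulVec, swapGL_mulVec, kronHom_val, kron_two_mulVec]
    have := congrFun (congrFun (hab (mt x)) i) j
    rw [hφ, hmt, hmt] at this
    exact this

/-- acting on the second factor -/
def rT {n κ ι' : Type} (Ψ : (κ → F) ≃ₗ[F] (ι' → F)) : (n × κ → F) ≃ₗ[F] (n × ι' → F) where
  toFun X p := Ψ (fun k => X (p.1, k)) p.2
  invFun Y p := Ψ.symm (fun k => Y (p.1, k)) p.2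
  map_add' X Y := by
    funext p
    have : (fun k => (X + Y) (p.1, k)) = (fun k => X (p.1, k)) + (fun k => Y (p.1, k)) := rfl
    rw [this, map_add]
    rfl
  map_smul' c X := by
    funext p
    have : (fun k => (c • X) (p.1, k)) = c • (fun k => X (p.1, k)) := rfl
    rw [this, map_smul]
    rfl
  left_inv X := by
    funext p
    show Ψ.symm (Ψ (fun k => X (p.1, k))) p.2 = X p
    rw [LinearEquiv.symm_apply_apply]
  right_inv Y := by
    funext p
    show Ψ (Ψ.symm (fun k => Y (p.1, k))) p.2 = Y p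
    rw [LinearEquiv.apply_symm_apply]

theorem rT_apply {n κ ι' : Type} (Ψ : (κ → F) ≃ₗ[F] (ι' → F)) (X : n × κ → F) (i : n) (j : ι') :
    rT Ψ X (i, j) = Ψ (fun k => X (i, k)) j := rfl

theorem kron_mulVec_row {n κ : Type} [Fintype n] [Fintype κ] (A : Matrix n n F) (B : Matrix κ κ F) (X : n × κ → F) (i : n) :
    (fun k => ((A ⊗ₖ B) *ᵥ X) (i, k)) = ∑ j, A i j • (B *ᵥ fun k => X (j, k)) := by
  funext k
  rw [Matrix.mulVec, dotProduct, Fintype.sum_prod_type, Finset.sum_apply]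
  refine Finset.sum_congr rfl fun j _ => ?_
  rw [Pi.smul_apply, smul_eq_mul, Matrix.mulVec, dotProduct, Finset.mul_sum]
  refine Finset.sum_congr rfl fun l _ => ?_
  rw [Matrix.kroneckerMap_apply, mul_assoc]

theorem kron_rT {n κ ι' : Type} [Fintype n] [Fintype κ] [Fintype ι'] {Ψ : (κ → F) ≃ₗ[F] (ι' → F)} {A : Matrix n n F}
    {B : Matrix ι' ι' F} {B' : Matrix κ κ F} (h : ∀ x, B *ᵥ Ψ x = Ψ (B' *ᵥ x)) (X : n × κ → F) :
    (A ⊗ₖ B) *ᵥ (rT Ψ X) = rT Ψ ((A ⊗ₖ B') *ᵥ X) := by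
  funext ⟨i, j⟩
  rw [rT_apply, kron_mulVec_row]
  have h1 : ((A ⊗ₖ B) *ᵥ (rT Ψ X)) (i, j) = (∑ k, A i k • (B *ᵥ fun l => rT Ψ X (k, l))) j :=
    congrFun (kron_mulVec_row A B (rT Ψ X) i) j
  rw [h1, map_sum, Finset.sum_apply, Finset.sum_apply]
  refine Finset.sum_congr rfl fun k _ => ?_
  rw [map_smul, ← h]
  rfl

theorem form_rT {n κ ι' : Type} [Fintype n] [DecidableEq n] [Fintype κ] [DecidableEq κ] [Fintype ι'] [DecidableEq ι']
    {Ψ : (κ → F) ≃ₗ[F] (ι' → F)} {G : Matrix n n F} {S : Matrix κ κ F} {f : (ι' → F) → (ι' → F) → F} (hf : IsBilinearForm f)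
    (h : ∀ x y, f (Ψ x) (Ψ y) = x ⬝ᵥ (S *ᵥ y)) (X Y : n × κ → F) :
    formOfGram id (G ⊗ₖ gramMatrix f) (rT Ψ X) (rT Ψ Y) = X ⬝ᵥ ((G ⊗ₖ S) *ᵥ Y) := by
  have key : ∀ (k : Type) [Fintype k] [DecidableEq k] (T : Matrix k k F) (U V : n × k → F),
      U ⬝ᵥ ((G ⊗ₖ T) *ᵥ V) = ∑ i, ∑ j, G i j * ((fun a => U (i, a)) ⬝ᵥ (T *ᵥ fun a => V (j, a))) := by
    intro k _ _ T U V
    rw [dotProduct, Fintype.sum_prod_type]
    refine Finset.sum_congr rfl fun i _ => ?_
    have h1 : ∀ a, ((G ⊗ₖ T) *ᵥ V) (i, a) = ∑ j, G i j * (T *ᵥ fun b => V (j, b)) a := by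
      intro a
      have this : ((G ⊗ₖ T) *ᵥ V) (i, a) = (∑ k, G i k • (T *ᵥ fun l => V (k, l))) a :=
        congrFun (kron_mulVec_row G T V i) a
      rw [this, Finset.sum_apply]
      rfl
    simp only [h1, Finset.mul_sum, dotProduct]
    rw [Finset.sum_comm]
    refine Finset.sum_congr rfl fun j _ => Finset.sum_congr rfl fun a _ => ?_
    ring
  have h1 : formOfGram id (G ⊗ₖ gramMatrix f) (rT Ψ X) (rT Ψ Y) = (rT Ψ X) ⬝ᵥ ((G ⊗ₖ gramMatrix f) *ᵥ (rT Ψ Y)) := by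
    rw [formOfGram, dotProduct]
    refine Finset.sum_congr rfl fun a _ => ?_
    rw [Matrix.mulVec, dotProduct, Finset.mul_sum]
    refine Finset.sum_congr rfl fun b _ => ?_
    rw [id, mul_assoc]
  rw [h1, key, key]
  refine Finset.sum_congr rfl fun i _ => Finset.sum_congr rfl fun j _ => ?_
  rw [← h, (isSesq_of_bilinear hf).eq_gram]
  rfl

theorem gram_two {f : (Fin 2 → F) → (Fin 2 → F) → F} (hf : IsSymplecticForm f) :
    ∃ d : F, d ≠ 0 ∧ gramMatrix f = d • S2 F := by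
  have hs := isSesq_of_bilinear hf.bilinear
  have hG : gramMatrix f = (gramMatrix f 0 1) • S2 F := by
    ext i j
    fin_cases i <;> fin_cases j
    · simp [S2, gramMatrix, hf.alternating]
    · simp [S2]
    · simp [S2, gramMatrix]
      rw [hf.skew]
    · simp [S2, gramMatrix, hf.alternating]
  refine ⟨_, ?_, hG⟩
  intro h0
  rw [h0, zero_smul] at hG
  obtain ⟨-, ⟨y, hy⟩⟩ := hf.nondegenerate (Pi.single 0 1) (by
    intro h
    have := congrFun h 0
    simp at this)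
  apply hy
  rw [hs.eq_gram, hG, Matrix.zero_mulVec, dotProduct_zero]

/-- coordinates for a tensor product of a symplectic plane and a four-dimensional space of plus type -/
theorem exists_tensor_coords (h2 : (2 : F) ≠ 0) {f : (ι → F) → (ι → F) → F} {f₁ : (Fin 2 → F) → (Fin 2 → F) → F}
    {f₂ : (Fin 4 → F) → (Fin 4 → F) → F} {e : ι ≃ Fin 2 × Fin 4} {P : GL ι F} (h₁ : IsSymplecticForm f₁)
    (h₂ : IsSymmetricForm f₂) (hp : IsPlusTypeOn (fun v => f₂ v v) ⊤) (hT : IsTensorFormStructure id f f₁ f₂ e P) :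
    ∃ (d c : F) (Φ : (Fin 2 × (Fin 2 × Fin 2) → F) ≃ₗ[F] (ι → F)), d ≠ 0 ∧ c ≠ 0 ∧ gramMatrix f₁ = d • S2 F ∧
      (∀ X Y, f (Φ X) (Φ Y) = c * (X ⬝ᵥ ((S2 F ⊗ₖ (S2 F ⊗ₖ S2 F)) *ᵥ Y))) ∧
      ∀ g ∈ tensorProductSubgroup 2 4 e P, (∀ u v, f ((g : Matrix ι ι F) *ᵥ u) ((g : Matrix ι ι F) *ᵥ v) = f u v) →
        ∃ A a b : GL (Fin 2) F, g = trG Φ (kronHom (A, kronHom (a, b))) ∨ g = trG Φ (kronHom (A, kronHom (a, b) * swapGL)) := by
  obtain ⟨d, hd, hG⟩ := gram_two h₁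
  obtain ⟨Ψ, hΨ⟩ := exists_plus_coords (by simp) h2 h₂ hp
  have hs₁ := isSesq_of_bilinear h₁.bilinear
  have hs₂ := isSesq_of_bilinear h₂.bilinear
  have hT' := hT
  obtain ⟨c, hc, hform⟩ := hT
  set Φ : (Fin 2 × (Fin 2 × Fin 2) → F) ≃ₗ[F] (ι → F) := (rT Ψ).trans (tmap e P) with hΦ
  have hΦa : ∀ X, Φ X = tmap e P (rT Ψ X) := fun X => rfl
  refine ⟨d, c * d, Φ, hd, mul_ne_zero hc hd, hG, ?_, ?_⟩
  · intro X Y
    rw [hΦa, hΦa, tmap_apply, tmap_apply, hform, form_rT h₂.bilinear hΨ, hG, Matrix.smul_kronecker, Matrix.smul_mulVec,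
      dotProduct_smul, smul_eq_mul, mul_assoc]
  · intro g hg hiso
    obtain ⟨A, B, hAB⟩ := tensorElt hg
    have hne₁ : ∃ x y, f₁ x y ≠ 0 := form_ne_zero_of_nondeg h₁.nondegenerate
    have hne₂ : ∃ x y, f₂ x y ≠ 0 := form_ne_zero_of_nondeg h₂.nondegenerate
    obtain ⟨l, -, hl⟩ := similarity_of_tensor (σ := RingEquiv.refl F) hs₁ hs₂ hne₁ hne₂ hT' hiso A B hAB
    set B' : GL (Fin 2 × Fin 2) F := (trG Ψ).symm B with hB'
    have hBB' : B = trG Ψ B' := ((trG Ψ).apply_symm_apply B).symm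
    have hBΨ : ∀ x, (B : Matrix (Fin 4) (Fin 4) F) *ᵥ Ψ x = Ψ ((B' : Matrix (Fin 2 × Fin 2) (Fin 2 × Fin 2) F) *ᵥ x) := by
      intro x
      rw [hBB', trG_mulVec]
    have hgΦ : ∀ X, (g : Matrix ι ι F) *ᵥ (Φ X) =
        Φ (((A : Matrix (Fin 2) (Fin 2) F) ⊗ₖ (B' : Matrix (Fin 2 × Fin 2) (Fin 2 × Fin 2) F)) *ᵥ X) := by
      intro X
      rw [hΦa, hAB, kron_rT hBΨ, hΦa]
    obtain ⟨a, b, hab⟩ := sim_s2s2 h2 (B := B') (l⁻¹).ne_zero (fun x => by
      rw [← hΨ, ← hBΨ, hl, hΨ])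
    refine ⟨A, a, b, ?_⟩
    rcases hab with hab | hab
    · left
      apply eq_trG
      intro X
      rw [hgΦ, kronHom_val, ← hab]
    · right
      apply eq_trG
      intro X
      rw [hgΦ, kronHom_val, ← hab]

end Cfsg.Agent.TwoGrp
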