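import Mathlib
import Cfsg.Agent.TwoGrp.PlusTen
import Cfsg.Agent.TwoGrp.Quat

set_option autoImplicit false
set_option linter.unusedSectionVars false
set_option linter.unusedSimpArgs false

/-!
The tensor product of a symplectic plane and a four-dimensional space of plus type: the stabiliser is contained in
the stabiliser of a third tensor power, and for three elements in the normaliser of an extraspecial group.
-/

namespace Cfsg.Agent.TwoGrp

open Module Cfsg.Geo Cfsg.Agent.Asch Cfsg.Agent.Asch.Sympl Cfsg.Agent.AschCases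
open scoped Matrix MatrixGroups Kronecker

variable {ι : Type} [Fintype ι] [DecidableEq ι] {F : Type*} [Field F]

/-- **class 6**, three elements -/
theorem plus_class6 [Fintype F] (hq : Fintype.card F = 3) (hc : Fintype.card ι = 8) {f : (ι → F) → (ι → F) → F}
    (hf : IsSymplecticForm f) {f₁ : (Fin 2 → F) → (Fin 2 → F) → F}
    {f₂ : (Fin 4 → F) → (Fin 4 → F) → F} {e : ι ≃ Fin 2 × Fin 4} {P : GL ι F} (h₁ : IsSymplecticForm f₁)
    (h₂ : IsSymmetricForm f₂) (hp : IsPlusTypeOn (fun v => f₂ v v) ⊤) (hT : IsTensorFormStructure id f f₁ f₂ e P) :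
    ∃ R : Subgroup (GL ι F), IsSymplecticTypeGroup 2 R ∧ ActsAbsolutelyIrreducibly (matrixSet R) ∧ R ≤ similarityGroup f ∧
      Nat.card R = 128 ∧ Nat.card (Subgroup.center R) = 2 ∧ IsOfMinusType 3 R ∧
      ∀ g ∈ tensorProductSubgroup 2 4 e P, (∀ u v, f ((g : Matrix ι ι F) *ᵥ u) ((g : Matrix ι ι F) *ᵥ v) = f u v) →
        g ∈ subgroupNormalizer R := by
  have h2 := three_field_two_ne hq
  have h3 := three_field_three (F := F) hq
  have : Nonempty ι := Fintype.card_pos_iff.1 (by omega)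
  obtain ⟨d, c, Φ, hd, hc0, hG, hΦ, hmem⟩ := exists_tensor_coords h2 h₁ h₂ hp hT
  have hQ := Q8_egrp h3 h2
  set N := kron (Q8 h3) (kron (Q8 h3) (Q8 h3)) with hN
  have hE : EGrp N := hQ.kron (hQ.kron hQ)
  have hE' := hE.map Φ
  have hΦ1 : ∀ X Y, f (Φ X) (Φ Y) = X ⬝ᵥ ((c • (S2 F ⊗ₖ (S2 F ⊗ₖ S2 F))) *ᵥ Y) := by
    intro X Y
    rw [hΦ, Matrix.smul_mulVec, dotProduct_smul, smul_eq_mul]
  have hS : S2 F = !![0, 1; -1, 0] := rfl
  have hfix : FixesForm (matrixSet (N.map (trG Φ).toMonoidHom)) f := by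
    rintro _ ⟨_, ⟨_, ⟨⟨x, _⟩, ⟨hx, ⟨⟨y, z⟩, ⟨hy, hz⟩, rfl⟩⟩, rfl⟩, rfl⟩, rfl⟩
    intro u v
    refine isom_trG hΦ1 ?_ u v
    have k1 : ∀ w : GL (Fin 2) F, w ∈ Q8 h3 → (w : Matrix (Fin 2) (Fin 2) F)ᵀ * S2 F * (w : Matrix (Fin 2) (Fin 2) F) = S2 F := by
      intro w hw
      have e2 := alt_det (A := (w : Matrix (Fin 2) (Fin 2) F)) (1 : F)
      rw [det_Q8 h3 hw, one_smul] at e2
      rw [hS, e2]
    rw [kronHom_val, kronHom_val, ← Matrix.kroneckerMap_transpose, ← Matrix.kroneckerMap_transpose, Matrix.mul_smul,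
      Matrix.smul_mul, ← Matrix.mul_kronecker_mul, ← Matrix.mul_kronecker_mul, ← Matrix.mul_kronecker_mul,
      ← Matrix.mul_kronecker_mul, k1 x hx, k1 y hy, k1 z hz]
  have m1 : trG Φ (kronHom (q1, 1)) ∈ N.map (trG Φ).toMonoidHom := ⟨_, kronHom_mem (q1_mem h3) (Subgroup.one_mem _), rfl⟩
  have m2 : trG Φ (kronHom (q2 h3, 1)) ∈ N.map (trG Φ).toMonoidHom := ⟨_, kronHom_mem (q2_mem h3) (Subgroup.one_mem _), rfl⟩
  have hkone : (kronHom ((1 : GL (Fin 2) F), (1 : GL (Fin 2 × Fin 2) F))) = 1 := map_one kronHom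
  obtain ⟨c1, c2, c3, c4, c5, c6⟩ := hE'.class6 h2 hf hfix m1 m2
    (by rw [← map_mul, ← map_mul, Prod.mk_mul_mk, q1_sq, mul_one, kronHom_neg_left, hkone, trG_neg, map_one])
    (by rw [← map_mul, ← map_mul, Prod.mk_mul_mk, q2_sq, mul_one, kronHom_neg_left, hkone, trG_neg, map_one])
    (by rw [← map_mul, ← map_mul, ← map_mul, ← map_mul, Prod.mk_mul_mk, Prod.mk_mul_mk, q12, kronHom_neg_left, trG_neg])
    (k := 3) (by rw [hc]; norm_num)
  refine ⟨N.map (trG Φ).toMonoidHom, c1, c2, c3, by rw [c4]; norm_num, c5, c6, ?_⟩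
  intro g hg hgiso
  obtain ⟨A, a, b, hab⟩ := hmem g hg hgiso
  have n1 := Nrm.Q8 hq h3
  rcases hab with rfl | rfl
  · exact mem_normalizer_map (Nrm.kron (n1 A) (Nrm.kron (n1 a) (n1 b)))
  · exact mem_normalizer_map (Nrm.kron (n1 A) (Nrm.mul (Nrm.kron (n1 a) (n1 b)) (Nrm.swap _)))

/-! ### third tensor powers -/

/-- triples -/
def kap3 : Fin 2 × (Fin 2 × Fin 2) ≃ (Fin 3 → Fin 2) where
  toFun p := ![p.1, p.2.1, p.2.2]
  invFun x := (x 0, (x 1, x 2))
  left_inv p := by simp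
  right_inv x := by
    funext i
    fin_cases i <;> rfl

theorem kap3_symm (x : Fin 3 → Fin 2) : kap3.symm x = (x 0, (x 1, x 2)) := rfl

theorem glReindex_val {κ κ' : Type} [Fintype κ] [DecidableEq κ] [Fintype κ'] [DecidableEq κ'] (e : κ ≃ κ') (k : GL κ F) (i j : κ') :
    ((glReindex e k : GL κ' F) : Matrix κ' κ' F) i j = (k : Matrix κ κ F) (e.symm i) (e.symm j) := rfl

theorem pure_mem (A a b : GL (Fin 2) F) : glReindex kap3 (kronHom (A, kronHom (a, b))) ∈ tensorWreathStandard 2 3 F := by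
  refine Subgroup.subset_closure (Or.inl ⟨![A, a, b], fun x y => ?_⟩)
  rw [glReindex_val, kap3_symm, kap3_symm, kronHom_val, kronHom_val, Matrix.kroneckerMap_apply, Matrix.kroneckerMap_apply,
    Fin.prod_univ_three]
  simp [mul_assoc]

theorem swap_mem : glReindex kap3 (kronHom (1, (swapGL : GL (Fin 2 × Fin 2) F))) ∈ tensorWreathStandard 2 3 F := by
  refine Subgroup.subset_closure (Or.inr ⟨Equiv.swap 1 2, fun x y => ?_⟩)
  rw [glReindex_val, kap3_symm, kap3_symm, kronHom_val, Matrix.kroneckerMap_apply, swapGL_val, Units.val_one, Matrix.one_apply]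
  have hs0 : (Equiv.swap (1 : Fin 3) 2) 0 = 0 := rfl
  have hs1 : (Equiv.swap (1 : Fin 3) 2) 1 = 2 := rfl
  have hs2 : (Equiv.swap (1 : Fin 3) 2) 2 = 1 := rfl
  by_cases h : y = x ∘ (Equiv.swap 1 2)
  · rw [if_pos h, h]
    simp [hs0, hs1, hs2]
  · rw [if_neg h]
    by_cases h0 : x 0 = y 0
    · rw [if_pos h0, if_neg, mul_zero]
      rintro ⟨h1, h3⟩
      apply h
      funext i
      fin_cases i
      · exact h0.symm
      · exact h3.symm
      · exact h1.symm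
    · rw [if_neg h0, zero_mul]

theorem exists_P {κ : Type} [Fintype κ] [DecidableEq κ] (e : ι ≃ κ) (Φ : (κ → F) ≃ₗ[F] (ι → F)) :
    ∃ P : GL ι F, ∀ x, Φ x = (P : Matrix ι ι F) *ᵥ (x ∘ e) := by
  let L : (ι → F) ≃ₗ[F] (ι → F) := (LinearEquiv.funCongrLeft F F e.symm).trans Φ
  refine ⟨Matrix.GeneralLinearGroup.mkOfDetNeZero (LinearMap.toMatrix' (L : (ι → F) →ₗ[F] (ι → F))) ?_, fun x => ?_⟩
  · rw [LinearMap.det_toMatrix']
    exact (LinearEquiv.isUnit_det' L).ne_zero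
  · show Φ x = (LinearMap.toMatrix' (L : (ι → F) →ₗ[F] (ι → F))) *ᵥ (x ∘ e)
    rw [← Matrix.toLin'_apply, Matrix.toLin'_toMatrix']
    show Φ x = Φ ((x ∘ e) ∘ e.symm)
    congr 1
    funext k
    simp

/-- membership in the stabiliser of a tensor power decomposition -/
theorem mem_tensorWreath_of {m t : ℕ} {e : ι ≃ (Fin t → Fin m)} {P g : GL ι F} {k : GL (Fin t → Fin m) F}
    (hk : k ∈ tensorWreathStandard m t F)
    (h : ∀ x : (Fin t → Fin m) → F, (g : Matrix ι ι F) *ᵥ ((P : Matrix ι ι F) *ᵥ (x ∘ e)) =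
      (P : Matrix ι ι F) *ᵥ (((k : Matrix _ _ F) *ᵥ x) ∘ e)) : g ∈ tensorWreathSubgroup m t e P := by
  refine Subgroup.mem_map.2 ⟨(glReindex e.symm) k, Subgroup.mem_map.2 ⟨k, hk, rfl⟩, ?_⟩
  apply ext_mulVec
  intro v
  obtain ⟨x, rfl⟩ : ∃ x : (Fin t → Fin m) → F, v = (P : Matrix ι ι F) *ᵥ (x ∘ e) := by
    refine ⟨(((P⁻¹ : GL ι F) : Matrix ι ι F) *ᵥ v) ∘ e.symm, ?_⟩
    rw [Function.comp_assoc, Equiv.symm_comp_self, Function.comp_id, Matrix.mulVec_mulVec, ← Units.val_mul, mul_inv_cancel,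
      Units.val_one, Matrix.one_mulVec]
  rw [h]
  have h1 : (((MulAut.conj P).toMonoidHom ((glReindex e.symm) k) : GL ι F) : Matrix ι ι F) =
      (P : Matrix ι ι F) * (Matrix.reindex e.symm e.symm (k : Matrix _ _ F)) * ((P⁻¹ : GL ι F) : Matrix ι ι F) := rfl
  rw [h1, Matrix.mulVec_mulVec, mul_assoc, ← Units.val_mul, inv_mul_cancel, Units.val_one, mul_one, ← Matrix.mulVec_mulVec]
  congr 1
  funext i
  simp only [Matrix.mulVec, dotProduct, Function.comp_apply, Matrix.reindex_apply, Matrix.submatrix_apply, Equiv.symm_symm]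
  rw [← e.sum_comp (fun j => (k : Matrix _ _ F) (e i) j * x j)]

/-- **third tensor power** -/
theorem plus_wreath (h2 : (2 : F) ≠ 0) (hc : Fintype.card ι = 8) {f : (ι → F) → (ι → F) → F}
    {f₁ : (Fin 2 → F) → (Fin 2 → F) → F}
    {f₂ : (Fin 4 → F) → (Fin 4 → F) → F} {e : ι ≃ Fin 2 × Fin 4} {P : GL ι F} (h₁ : IsSymplecticForm f₁)
    (h₂ : IsSymmetricForm f₂) (hp : IsPlusTypeOn (fun v => f₂ v v) ⊤) (hT : IsTensorFormStructure id f f₁ f₂ e P) :
    ∃ (e' : ι ≃ (Fin 3 → Fin 2)) (P' : GL ι F), IsTensorPowerFormStructure id f f₁ e' P' ∧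
      ∀ g ∈ tensorProductSubgroup 2 4 e P, (∀ u v, f ((g : Matrix ι ι F) *ᵥ u) ((g : Matrix ι ι F) *ᵥ v) = f u v) →
        g ∈ tensorWreathSubgroup 2 3 e' P' := by
  obtain ⟨d, c, Φ, hd, hc0, hG, hΦ, hmem⟩ := exists_tensor_coords h2 h₁ h₂ hp hT
  let e' : ι ≃ (Fin 3 → Fin 2) := Fintype.equivOfCardEq (by rw [hc]; simp)
  let Φ' : ((Fin 3 → Fin 2) → F) ≃ₗ[F] (ι → F) := (LinearEquiv.funCongrLeft F F kap3).trans Φ
  have hΦ' : ∀ x, Φ' x = Φ (x ∘ kap3) := fun x => rfl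
  obtain ⟨P', hP'⟩ := exists_P e' Φ'
  refine ⟨e', P', ⟨c / d ^ 3, div_ne_zero hc0 (pow_ne_zero _ hd), ?_⟩, ?_⟩
  · intro x y
    rw [← hP', ← hP', hΦ', hΦ', hΦ, hG]
    have h1 : ∀ a b : Fin 3 → Fin 2, ∏ i, (d • S2 F) (a i) (b i) = d ^ 3 * (S2 F (a 0) (b 0) * (S2 F (a 1) (b 1) * S2 F (a 2) (b 2))) := by
      intro a b
      rw [Fin.prod_univ_three]
      simp only [Matrix.smul_apply, smul_eq_mul]
      ring
    have h3 : (x ∘ kap3) ⬝ᵥ ((S2 F ⊗ₖ (S2 F ⊗ₖ S2 F)) *ᵥ (y ∘ kap3)) =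
        ∑ a : Fin 3 → Fin 2, ∑ b : Fin 3 → Fin 2, x a * (S2 F (a 0) (b 0) * (S2 F (a 1) (b 1) * S2 F (a 2) (b 2))) * y b := by
      rw [dotProduct, ← kap3.sum_comp (fun a => ∑ b : Fin 3 → Fin 2, x a * (S2 F (a 0) (b 0) * (S2 F (a 1) (b 1) * S2 F (a 2) (b 2))) * y b)]
      refine Finset.sum_congr rfl fun p _ => ?_
      rw [Matrix.mulVec, dotProduct, Finset.mul_sum, ← kap3.sum_comp (fun b => x (kap3 p) * (S2 F (kap3 p 0) (b 0) * (S2 F (kap3 p 1) (b 1) * S2 F (kap3 p 2) (b 2))) * y b)]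
      refine Finset.sum_congr rfl fun q _ => ?_
      rw [Matrix.kroneckerMap_apply, Matrix.kroneckerMap_apply, Function.comp_apply, Function.comp_apply, ← mul_assoc]
      rfl
    rw [h3, Finset.mul_sum, Finset.mul_sum]
    refine Finset.sum_congr rfl fun a _ => ?_
    rw [Finset.mul_sum, Finset.mul_sum]
    refine Finset.sum_congr rfl fun b _ => ?_
    rw [h1]
    simp only [id]
    field_simp
  · intro g hg hgiso
    obtain ⟨A, a, b, hab⟩ := hmem g hg hgiso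
    have key : ∀ k : GL (Fin 2 × (Fin 2 × Fin 2)) F, glReindex kap3 k ∈ tensorWreathStandard 2 3 F → g = trG Φ k →
        g ∈ tensorWreathSubgroup 2 3 e' P' := by
      intro k hk hgk
      refine mem_tensorWreath_of hk fun x => ?_
      rw [← hP', ← hP', hΦ', hΦ', hgk, trG_mulVec]
      congr 1
      funext p
      simp only [Matrix.mulVec, dotProduct, Function.comp_apply, glReindex_val, Equiv.symm_apply_apply]
      rw [← kap3.sum_comp (fun q => (k : Matrix _ _ F) p (kap3.symm q) * x q)]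
      simp
    rcases hab with hab | hab
    · exact key _ (pure_mem A a b) hab
    · refine key _ ?_ hab
      have e1 : (kronHom (A, kronHom (a, b) * swapGL) : GL (Fin 2 × (Fin 2 × Fin 2)) F) =
          kronHom (A, kronHom (a, b)) * kronHom (1, swapGL) := by
        rw [← map_mul, Prod.mk_mul_mk, mul_one]
      rw [e1, map_mul]
      exact Subgroup.mul_mem _ (pure_mem A a b) swap_mem

end Cfsg.Agent.TwoGrp
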