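import Mathlib
import Cfsg.Agent.AschCases.SpMain
import Cfsg.Agent.AschCases.ArithSix
import Cfsg.Agent.TwoGrp.PlusMem

set_option autoImplicit false
set_option linter.unusedSectionVars false
set_option linter.unusedVariables false
set_option linter.style.haveILetI false
set_option linter.unnecessarySeqFocus false

/-!
The list of maximal subgroups of Sp_8 from the structure theorem.
-/

namespace Cfsg.Agent.TwoGrp

open scoped Matrix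
open Cfsg.Geo Cfsg.Agent.AschCases

theorem sp_cases_4 {F : Type*} [Field F] [Fintype F] (H : Subgroup (Matrix.GeneralLinearGroup (Fin 4 ⊕ Fin 4) F)) (hH : Cfsg.Geo.IsMaximalIn (Cfsg.spGL 4 F) H)
    (hstr : (∃ M, Asch.SpMember (Cfsg.sympForm 4 F) M ∧ H ≤ M) ∨ InSymplecticResidualClass H) :
    (∃ W : Submodule F (Fin 4 ⊕ Fin 4 → F), W ≠ ⊥ ∧ Cfsg.Geo.IsTotallySingularFor (Cfsg.sympForm 4 F) W ∧ H = Cfsg.Geo.subspaceStabilizer W ⊓ Cfsg.spGL 4 F) ∨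
    (∃ W : Submodule F (Fin 4 ⊕ Fin 4 → F), W ≠ ⊥ ∧ Cfsg.Geo.IsNondegenerateOn (Cfsg.sympForm 4 F) W ∧ Module.finrank F W < 4 ∧ H = Cfsg.Geo.subspaceStabilizer W ⊓ Cfsg.spGL 4 F) ∨
    (3 ≤ Fintype.card F ∧ ∃ D : Fin 4 → Submodule F (Fin 4 ⊕ Fin 4 → F), Cfsg.Geo.IsNondegenerateMDecomposition (Cfsg.sympForm 4 F) 2 D ∧ H = Cfsg.Geo.decompositionStabilizer D ⊓ Cfsg.spGL 4 F) ∨
    (∃ D : Fin 2 → Submodule F (Fin 4 ⊕ Fin 4 → F), Cfsg.Geo.IsNondegenerateMDecomposition (Cfsg.sympForm 4 F) 4 D ∧ H = Cfsg.Geo.decompositionStabilizer D ⊓ Cfsg.spGL 4 F) ∨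
    (Odd (Fintype.card F) ∧ ∃ D : Fin 2 → Submodule F (Fin 4 ⊕ Fin 4 → F), Cfsg.Geo.IsMDecomposition 4 D ∧ (∀ i, Cfsg.Geo.IsTotallySingularFor (Cfsg.sympForm 4 F) (D i)) ∧ H = Cfsg.Geo.decompositionStabilizer D ⊓ Cfsg.spGL 4 F) ∨
    (∃ K : Subalgebra F (Matrix (Fin 4 ⊕ Fin 4) (Fin 4 ⊕ Fin 4) F), Cfsg.Geo.IsFieldSubalgebra 2 K ∧ Cfsg.Geo.IsSelfAdjointFor (Cfsg.sympForm 4 F) K ∧ (∀ k ∈ K, ∀ v : (Fin 4 ⊕ Fin 4 → F), (Cfsg.sympForm 4 F) (Matrix.mulVec k v) v = 0) ∧ H = Cfsg.Geo.subalgebraNormalizer K ⊓ Cfsg.spGL 4 F) ∨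
    (Odd (Fintype.card F) ∧ ∃ K : Subalgebra F (Matrix (Fin 4 ⊕ Fin 4) (Fin 4 ⊕ Fin 4) F), Cfsg.Geo.IsFieldSubalgebra 2 K ∧ Cfsg.Geo.IsAdjointClosedFor (Cfsg.sympForm 4 F) K ∧ ¬ Cfsg.Geo.IsSelfAdjointFor (Cfsg.sympForm 4 F) K ∧ H = Cfsg.Geo.subalgebraNormalizer K ⊓ Cfsg.spGL 4 F) ∨
    (Odd (Fintype.card F) ∧ ∃ (e : (Fin 4 ⊕ Fin 4) ≃ Fin 2 × Fin 4) (P : Matrix.GeneralLinearGroup (Fin 4 ⊕ Fin 4) F) (f₁ : (Fin 2 → F) → (Fin 2 → F) → F) (f₂ : (Fin 4 → F) → (Fin 4 → F) → F), Cfsg.Geo.IsSymplecticForm f₁ ∧ Cfsg.Geo.IsSymmetricForm f₂ ∧ ¬ Cfsg.Geo.IsPlusTypeOn (fun v : Fin 4 → F => f₂ v v) ⊤ ∧ Cfsg.Geo.IsTensorFormStructure id (Cfsg.sympForm 4 F) f₁ f₂ e P ∧ H = Cfsg.Geo.tensorProductSubgroup 2 4 e P ⊓ Cfsg.spGL 4 F) ∨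
    (∃ (F₀ : Subfield F) (r : ℕ) (P : Matrix.GeneralLinearGroup (Fin 4 ⊕ Fin 4) F) (ζ : F), r.Prime ∧ Fintype.card F = Nat.card F₀ ^ r ∧ ζ ≠ 0 ∧ Cfsg.Geo.IsFormRationalStructure (Cfsg.sympForm 4 F) F₀ ζ P ∧ H = Cfsg.Geo.subfieldSubgroup F₀ P ⊓ Cfsg.spGL 4 F) ∨
    (∃ (p : ℕ) (R : Subgroup (Matrix.GeneralLinearGroup (Fin 4 ⊕ Fin 4) F)), p.Prime ∧ Odd p ∧ Fintype.card F = p ∧ Cfsg.Geo.IsSymplecticTypeGroup 2 R ∧ Cfsg.Geo.ActsAbsolutelyIrreducibly (Cfsg.Geo.matrixSet R) ∧ R ≤ Cfsg.Geo.similarityGroup (Cfsg.sympForm 4 F) ∧ Nat.card R = 128 ∧ Nat.card (Subgroup.center R) = 2 ∧ Cfsg.Geo.IsOfMinusType 3 R ∧ H = Cfsg.Geo.subgroupNormalizer R ⊓ Cfsg.spGL 4 F) ∨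
    (Odd (Fintype.card F) ∧ 5 ≤ Fintype.card F ∧ ∃ (e : (Fin 4 ⊕ Fin 4) ≃ (Fin 3 → Fin 2)) (P : Matrix.GeneralLinearGroup (Fin 4 ⊕ Fin 4) F) (f₁ : (Fin 2 → F) → (Fin 2 → F) → F), Cfsg.Geo.IsSymplecticForm f₁ ∧ Cfsg.Geo.IsTensorPowerFormStructure id (Cfsg.sympForm 4 F) f₁ e P ∧ H = Cfsg.Geo.tensorWreathSubgroup 2 3 e P ⊓ Cfsg.spGL 4 F) ∨
    (¬ Odd (Fintype.card F) ∧ ∃ Q : (Fin 4 ⊕ Fin 4 → F) → F, Cfsg.Geo.IsNondegenerateQuadraticForm Q ∧ (∀ u v : (Fin 4 ⊕ Fin 4 → F), QuadraticMap.polar Q u v = (Cfsg.sympForm 4 F) u v) ∧ H = Cfsg.Geo.quadSimilarityGroup Q ⊓ Cfsg.spGL 4 F) ∨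
    Cfsg.Geo.InSymplecticResidualClass H := by
  have hs := GeoMax.Symp.std 4 F
  have hc : Fintype.card (Fin 4 ⊕ Fin 4) = 8 := by simp
  haveI : Nonempty (Fin 4 ⊕ Fin 4) := ⟨Sum.inl 0⟩
  have hq1 : 1 < Fintype.card F := Fintype.one_lt_card
  rcases sp_maximal (by norm_num) hH hstr with ⟨M, hM, hE⟩ | hres
  swap
  · exact Or.inr (Or.inr (Or.inr (Or.inr (Or.inr (Or.inr (Or.inr (Or.inr (Or.inr (Or.inr (Or.inr (Or.inr (hres))))))))))))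
  rcases hM with ⟨W, h1, h2, rfl⟩ | ⟨W, h1, h2, h3, rfl⟩ | ⟨t, k, D, h1, rfl⟩ | ⟨k, D, h1, h2, h3, rfl⟩ |
    ⟨r, K, h1, h2, h3, h4, rfl⟩ | ⟨K, h1, h2, h3, h4, rfl⟩ | ⟨n₁, n₂, e, P, f₁, f₂, h1, h2, h3, h4, h5, rfl⟩ |
    ⟨F₀, r, P, ζ, h1, h2, h3, h4, rfl⟩ | ⟨R, p, k, h1, h2, h3, h4, h5, h6, h7, h8, h9, h10, rfl⟩ |
    ⟨k, t, e, P, f₁, h1, h2, h3, h4, h5, h6, rfl⟩ | ⟨Q, h1, h2, h3, rfl⟩
  · exact Or.inl (⟨W, h1, h2, hE⟩)
  · exact Or.inr (Or.inl (⟨W, h1, h2, by omega, hE⟩))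
  · have ht := h1.decomp.two_le
    have e1 := even_finrank_nondeg hs (h1.nondegenerate ⟨0, by omega⟩)
    rw [h1.decomp.finrank_eq] at e1
    have e2 := card_eq_of_decomp h1.decomp
    rw [hc] at e2
    have e3 := h1.decomp.pos
    obtain ⟨j, hj⟩ := e1
    have e4 : k ≤ 4 := by nlinarith
    have hcs : (t = 4 ∧ k = 2) ∨ (t = 2 ∧ k = 4) := by
      interval_cases k <;> omega
    rcases hcs with ⟨rfl, rfl⟩ | ⟨rfl, rfl⟩
    · by_cases hq2 : Fintype.card F = 2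
      · obtain ⟨Q, hQ, hQ', hle⟩ := planes_two hq2 hs h1
        have hodd : ¬ Odd (Fintype.card F) := by rw [hq2]; decide
        have hle2 : H ≤ quadSimilarityGroup Q := by rw [hE]; exact inf_le_left.trans hle
        have hE2 := eq_inf_of_maximal hH hle2 (sp_not_le_quadSimilarity (by norm_num) (two_eq_zero_of_card hodd) hQ hQ')
        exact Or.inr (Or.inr (Or.inr (Or.inr (Or.inr (Or.inr (Or.inr (Or.inr (Or.inr (Or.inr (Or.inr (Or.inl (⟨hodd, Q, hQ, hQ', hE2⟩))))))))))))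
      · exact Or.inr (Or.inr (Or.inl (⟨by omega, D, h1, hE⟩)))
    · exact Or.inr (Or.inr (Or.inr (Or.inl (⟨D, h1, hE⟩))))
  · have e2 := card_eq_of_decomp h2
    rw [hc] at e2
    obtain rfl : k = 4 := by omega
    exact Or.inr (Or.inr (Or.inr (Or.inr (Or.inl (⟨h1, D, h2, h3, hE⟩)))))
  · have hrm : r ∣ 4 := dvd_half hs h2 h3 h4 (by rw [hc])
    have hrle : r ≤ 4 := Nat.le_of_dvd (by norm_num) hrm
    have hr2 := h1.two_le
    have hcs : r = 2 := by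
      interval_cases r <;> first | (exfalso; revert hrm; norm_num; done) | (exfalso; revert h1; norm_num; done) | simp
    rcases hcs with rfl
    exact Or.inr (Or.inr (Or.inr (Or.inr (Or.inr (Or.inl (⟨K, h2, h3, h4, hE⟩))))))
  · exact Or.inr (Or.inr (Or.inr (Or.inr (Or.inr (Or.inr (Or.inl (⟨h1, K, h2, h3, h4, hE⟩)))))))
  · have e1 := Asch.even_card_of_isSymplecticForm h3
    rw [Fintype.card_fin] at e1
    have e2 : Fintype.card (Fin 4 ⊕ Fin 4) = n₁ * n₂ := by simpa using Fintype.card_congr e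
    rw [hc] at e2
    obtain ⟨j, hj⟩ := e1
    have e4 : n₁ ≤ 2 := by nlinarith
    have hcs : (n₁ = 2 ∧ n₂ = 4) := by
      interval_cases n₁ <;> omega
    obtain ⟨rfl, rfl⟩ := hcs
    have hF2 : (2 : F) ≠ 0 := by
      intro h0
      have h7 := FiniteField.even_card_iff_char_two (F := F)
      have h8 : ringChar F = 2 := by
        have : ((2 : ℕ) : F) = 0 := by exact_mod_cast h0
        have h9 := (ringChar.spec F 2).1 this
        rcases (Nat.dvd_prime Nat.prime_two).1 h9 with h10 | h10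
        · exact absurd h10 (CharP.ringChar_ne_one)
        · exact h10
      rw [h7] at h8
      rw [Nat.odd_iff] at h1
      omega
    by_cases hp : IsPlusTypeOn (fun v : Fin 4 → F => f₂ v v) ⊤
    · by_cases hq3 : Fintype.card F = 3
      · obtain ⟨R, r1, r2, r3, r4, r5, r6, r7⟩ := plus_class6 hq3 hc hs h3 h4 hp h5
        have hle2 : H ≤ subgroupNormalizer R := by
          rw [hE]; exact fun g hg => r7 g hg.1 ((mem_spGL_iff g).1 hg.2)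
        have hE2 := eq_inf_of_maximal hH hle2 (spMember_not_le (by norm_num) (m := 4)
          (Or.inr (Or.inr (Or.inr (Or.inr (Or.inr (Or.inr (Or.inr (Or.inr (Or.inl
            ⟨R, 3, 3, r1, r2, r3, Nat.prime_three, by decide, hq3, by rw [r4]; norm_num, r5, r6, by rw [hc]; norm_num, rfl⟩))))))))))
        exact Or.inr (Or.inr (Or.inr (Or.inr (Or.inr (Or.inr (Or.inr (Or.inr (Or.inr (Or.inl (⟨3, R, Nat.prime_three, by decide, hq3, r1, r2, r3, r4, r5, r6, hE2⟩))))))))))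
      · have hq5 : 5 ≤ Fintype.card F := by
          obtain ⟨j, hj⟩ := h1
          omega
        obtain ⟨e', P', w1, w2⟩ := plus_wreath hF2 hc h3 h4 hp h5
        have hle2 : H ≤ tensorWreathSubgroup 2 3 e' P' := by
          rw [hE]; exact fun g hg => w2 g hg.1 ((mem_spGL_iff g).1 hg.2)
        have hE2 := eq_inf_of_maximal hH hle2 (spMember_not_le (by norm_num) (m := 4)
          (Or.inr (Or.inr (Or.inr (Or.inr (Or.inr (Or.inr (Or.inr (Or.inr (Or.inr (Or.inl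
            ⟨2, 3, e', P', f₁, h1, by decide, le_rfl, fun h => hq3 h.1, h3, w1, rfl⟩)))))))))))
        exact Or.inr (Or.inr (Or.inr (Or.inr (Or.inr (Or.inr (Or.inr (Or.inr (Or.inr (Or.inr (Or.inl (⟨h1, hq5, e', P', f₁, h3, w1, hE2⟩)))))))))))
    · exact Or.inr (Or.inr (Or.inr (Or.inr (Or.inr (Or.inr (Or.inr (Or.inl (⟨h1, e, P, f₁, f₂, h3, h4, hp, h5, hE⟩))))))))
  · exact Or.inr (Or.inr (Or.inr (Or.inr (Or.inr (Or.inr (Or.inr (Or.inr (Or.inl (⟨F₀, r, P, ζ, h1, h2, h3, h4, hE⟩)))))))))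
  · have hk : k = 3 := by
      rw [hc] at h10
      have : (2:ℕ) ^ 3 = 2 ^ k := by rw [← h10]; norm_num
      exact (Nat.pow_right_injective le_rfl this).symm
    subst hk
    exact Or.inr (Or.inr (Or.inr (Or.inr (Or.inr (Or.inr (Or.inr (Or.inr (Or.inr (Or.inl (⟨p, R, h4, h5, h6, h1, h2, h3, h7, h8, h9, hE⟩))))))))))
  · have e1 := Asch.even_card_of_isSymplecticForm h5
    rw [Fintype.card_fin] at e1
    have e2 : Fintype.card (Fin 4 ⊕ Fin 4) = k ^ t := by simpa using Fintype.card_congr e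
    rw [hc] at e2
    have hk0 : k ≠ 0 := by
      rintro rfl
      rw [zero_pow (by omega)] at e2
      omega
    obtain ⟨j, hj⟩ := e1
    have hk2 : 2 ≤ k := by omega
    have hk3 : k < 3 := by
      by_contra hk3
      have e5 : 3 ^ 3 ≤ k ^ t := (Nat.pow_le_pow_left (by omega) 3).trans (Nat.pow_le_pow_right (by omega) h3)
      omega
    obtain rfl : k = 2 := by omega
    have ht : t = 3 := by
      have : (2:ℕ) ^ 3 = 2 ^ t := by rw [← e2]; norm_num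
      exact (Nat.pow_right_injective le_rfl this).symm
    subst ht
    have hq5 : 5 ≤ Fintype.card F := by
      have : ¬ Fintype.card F = 3 := fun h => h4 ⟨h, rfl⟩
      obtain ⟨j, hj⟩ := h1
      omega
    exact Or.inr (Or.inr (Or.inr (Or.inr (Or.inr (Or.inr (Or.inr (Or.inr (Or.inr (Or.inr (Or.inl (⟨h1, hq5, e, P, f₁, h5, h6, hE⟩)))))))))))
  · exact Or.inr (Or.inr (Or.inr (Or.inr (Or.inr (Or.inr (Or.inr (Or.inr (Or.inr (Or.inr (Or.inr (Or.inl (⟨h1, Q, h2, h3, hE⟩))))))))))))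

end Cfsg.Agent.TwoGrp
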