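import Mathlib
import Cfsg.Agent.TwoGrp.UniK
import Cfsg.Agent.AschCases.BlockDec
import Cfsg.Agent.AschCases.SmallQ

set_option autoImplicit false
set_option linter.unusedSectionVars false

/-!
Pairs of totally singular planes over the field with three elements.
-/

namespace Cfsg.Agent.TwoGrp

open Module Cfsg.Geo Cfsg.Agent.Asch Cfsg.Agent.Asch.Sympl Cfsg.Agent.AschCases
open scoped Matrix MatrixGroups Kronecker

variable {ι : Type} [Fintype ι] [DecidableEq ι] {F : Type*} [Field F]

theorem neg_right {f : (ι → F) → (ι → F) → F} (hf : IsBilinearForm f) (u v : ι → F) : f u (-v) = - f u v := by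
  have := hf.smul_right (-1) u v
  rwa [neg_one_smul, neg_one_mul] at this

theorem neg_left {f : (ι → F) → (ι → F) → F} (hf : IsBilinearForm f) (u v : ι → F) : f (-u) v = - f u v := by
  have := hf.smul_left (-1) u v
  rwa [neg_one_smul, neg_one_mul] at this

/-- dual bases of a pair of totally singular planes -/
theorem exists_dual {f : (ι → F) → (ι → F) → F} (hf : IsSymplecticForm f)
    {D : Fin 2 → Submodule F (ι → F)} (hD : IsMDecomposition 2 D) (hts : ∀ i, IsTotallySingularFor f (D i)) :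
    ∃ u w : Fin 2 → (ι → F), (∀ i, u i ∈ D 0) ∧ (∀ i, w i ∈ D 1) ∧ (∀ i j, f (u i) (w j) = if i = j then 1 else 0) := by
  have hs := isSesq_of_bilinear hf.bilinear
  obtain ⟨b, hb, -⟩ := exists_basis_decomp hD
  set G : Matrix (Fin 2) (Fin 2) F := Matrix.of fun a c => f (b ⟨0, a⟩) (b ⟨1, c⟩) with hG
  have hdet : G.det ≠ 0 := by
    intro h0
    obtain ⟨x, hx0, hx⟩ := Matrix.exists_mulVec_eq_zero_iff.2 h0
    set y : ι → F := ∑ c, x c • b ⟨1, c⟩ with hy
    have hyne : y ≠ 0 := by
      intro hy0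
      apply hx0
      have hli : LinearIndependent F (fun c : Fin 2 => b ⟨1, c⟩) :=
        b.linearIndependent.comp (fun c => (⟨1, c⟩ : Σ _ : Fin 2, Fin 2)) (fun a a' h => by simpa using h)
      rw [Fintype.linearIndependent_iff] at hli
      funext c
      exact hli x hy0 c
    obtain ⟨⟨z, hz⟩, -⟩ := hf.nondegenerate y hyne
    apply hz
    rw [← b.sum_repr z, hs.sum_left]
    refine Finset.sum_eq_zero fun p _ => ?_
    rw [hf.bilinear.smul_left]
    obtain ⟨i, a⟩ := p
    fin_cases i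
    · have := congrFun hx a
      simp only [Matrix.mulVec, dotProduct, hG, Matrix.of_apply, Pi.zero_apply] at this
      rw [hy, hs.sum_right]
      simp only [hf.bilinear.smul_right]
      have e : ∑ i, x i * f (b ⟨0, a⟩) (b ⟨1, i⟩) = 0 := by
        rw [← this]
        exact Finset.sum_congr rfl fun i _ => mul_comm _ _
      simp only [Fin.zero_eta, Fin.isValue] at e ⊢
      rw [e, mul_zero]
    · have : f (b ⟨1, a⟩) y = 0 := hts 1 _ (hb 1 a) _ (Submodule.sum_mem _ fun c _ => Submodule.smul_mem _ _ (hb 1 c))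
      simp only [Fin.mk_one, Fin.isValue]
      rw [this, mul_zero]
  have hunit : IsUnit G.det := isUnit_iff_ne_zero.2 hdet
  refine ⟨fun i => b ⟨0, i⟩, fun j => ∑ a, G⁻¹ a j • b ⟨1, a⟩, fun i => hb 0 i, fun j =>
    Submodule.sum_mem _ fun a _ => Submodule.smul_mem _ _ (hb 1 a), fun i j => ?_⟩
  rw [hs.sum_right]
  simp only [hf.bilinear.smul_right]
  have h1 := congrFun (congrFun (Matrix.mul_nonsing_inv G hunit) i) j
  rw [Matrix.mul_apply, Matrix.one_apply] at h1
  rw [← h1]
  refine Finset.sum_congr rfl fun a _ => ?_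
  rw [hG, Matrix.of_apply, mul_comm]

/-- coordinates with respect to dual bases -/
theorem dual_expand (hc : Fintype.card ι = 4) {f : (ι → F) → (ι → F) → F} (hf : IsSymplecticForm f)
    {D : Fin 2 → Submodule F (ι → F)} (hts : ∀ i, IsTotallySingularFor f (D i)) {u w : Fin 2 → (ι → F)}
    (hu : ∀ i, u i ∈ D 0) (hw : ∀ i, w i ∈ D 1) (huw : ∀ i j, f (u i) (w j) = if i = j then 1 else 0) :
    (∀ v ∈ D 0, v = f v (w 0) • u 0 + f v (w 1) • u 1) ∧ (∀ v ∈ D 1, v = f (u 0) v • w 0 + f (u 1) v • w 1) := by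
  have hs := isSesq_of_bilinear hf.bilinear
  have huu : ∀ i j, f (u i) (u j) = 0 := fun i j => hts 0 _ (hu i) _ (hu j)
  have hww : ∀ i j, f (w i) (w j) = 0 := fun i j => hts 1 _ (hw i) _ (hw j)
  have hwu : ∀ i j, f (w i) (u j) = - if j = i then 1 else 0 := fun i j => by rw [hf.skew, huw]
  obtain ⟨Φ, hΦ1, hΦ2⟩ := exists_coords (κ := Fin 2 × Fin 2) hf.bilinear
    (fun p => ![u, w] p.1 p.2) (S2 F ⊗ₖ (1 : Matrix (Fin 2) (Fin 2) F)) (by
      rintro ⟨a, b⟩ ⟨c, d⟩
      fin_cases a <;> fin_cases b <;> fin_cases c <;> fin_cases d <;>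
        simp [S2, huu, hww, huw, hwu]) (by
      rw [Matrix.det_kronecker]
      simp [S2, Matrix.det_fin_two_of]) (by rw [hc]; simp)
  have hall : ∀ v : ι → F, ∃ a b c d : F, v = a • u 0 + b • u 1 + (c • w 0 + d • w 1) := by
    intro v
    obtain ⟨X, rfl⟩ := Φ.surjective v
    refine ⟨X (0, 0), X (0, 1), X (1, 0), X (1, 1), ?_⟩
    rw [hΦ1, Fintype.sum_prod_type, Fin.sum_univ_two, Fin.sum_univ_two, Fin.sum_univ_two]
    simp
  constructor
  · intro v hv
    obtain ⟨a, b, c, d, rfl⟩ := hall v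
    have h1 := hts 0 _ (hu 0) _ hv
    have h2 := hts 0 _ (hu 1) _ hv
    simp only [hf.bilinear.add_right, hf.bilinear.smul_right, huu, huw] at h1 h2
    simp at h1 h2
    subst h1 h2
    simp [hf.bilinear.add_left, hf.bilinear.smul_left, huw]
  · intro v hv
    obtain ⟨a, b, c, d, rfl⟩ := hall v
    have h1 := hts 1 _ (hw 0) _ hv
    have h2 := hts 1 _ (hw 1) _ hv
    simp only [hf.bilinear.add_right, hf.bilinear.smul_right, hww, hwu] at h1 h2
    simp at h1 h2
    subst h1 h2
    simp [hf.bilinear.add_right, hf.bilinear.smul_right, huw]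

/-- **pairs of totally singular planes**, `q = 3`: contained in the stabiliser of an orthogonal pair of planes -/
theorem ts_pair_three [Fintype F] (hq : Fintype.card F = 3) (hc : Fintype.card ι = 4) {f : (ι → F) → (ι → F) → F}
    (hf : IsSymplecticForm f) {D : Fin 2 → Submodule F (ι → F)} (hD : IsMDecomposition 2 D)
    (hts : ∀ i, IsTotallySingularFor f (D i)) :
    ∃ D' : Fin 2 → Submodule F (ι → F), IsNondegenerateMDecomposition f 2 D' ∧
      ∀ g ∈ decompositionStabilizer D, (∀ u v, f ((g : Matrix ι ι F) *ᵥ u) ((g : Matrix ι ι F) *ᵥ v) = f u v) →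
        g ∈ decompositionStabilizer D' := by
  have h2 := three_field_two_ne hq
  have hs := isSesq_of_bilinear hf.bilinear
  obtain ⟨u, w, hu, hw, huw⟩ := exists_dual hf hD hts
  obtain ⟨ex0, ex1⟩ := dual_expand hc hf hts hu hw huw
  have huu : ∀ i j, f (u i) (u j) = 0 := fun i j => hts 0 _ (hu i) _ (hu j)
  have hww : ∀ i j, f (w i) (w j) = 0 := fun i j => hts 1 _ (hw i) _ (hw j)
  have hwu : ∀ i j, f (w i) (u j) = - if j = i then 1 else 0 := fun i j => by rw [hf.skew, huw]
  set e : Fin 2 × Fin 2 → (ι → F) := fun p => ![![u 0 + w 1, u 1 - w 0], ![u 0 - w 1, u 1 + w 0]] p.1 p.2 with he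
  obtain ⟨Φ, hΦ1, hΦ2⟩ := exists_coords (κ := Fin 2 × Fin 2) hf.bilinear e
    (Matrix.diagonal ![(-2 : F), 2] ⊗ₖ S2 F) (by
      rintro ⟨a, b⟩ ⟨c, d⟩
      fin_cases a <;> fin_cases b <;> fin_cases c <;> fin_cases d <;>
        simp [he, S2, sub_eq_add_neg, hf.bilinear.add_left, hf.bilinear.add_right, neg_left hf.bilinear,
          neg_right hf.bilinear, huu, hww, huw, hwu] <;> ring) (by
      rw [Matrix.det_kronecker]
      simp [S2, Matrix.det_fin_two_of, h2]) (by rw [hc]; simp)
  let b : Module.Basis (Fin 2 × Fin 2) F (ι → F) := (Pi.basisFun F (Fin 2 × Fin 2)).map Φ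
  have hb : ∀ p, b p = e p := by
    intro p
    simp only [b, Module.Basis.map_apply, Pi.basisFun_apply, hΦ1]
    rw [Finset.sum_eq_single p]
    · rw [Pi.single_eq_same, one_smul]
    · intro q _ hq; rw [Pi.single_eq_of_ne hq, zero_smul]
    · intro h; exact absurd (Finset.mem_univ _) h
  have hbr : ∀ X p, b.repr (Φ X) p = X p := by
    intro X p
    simp [b, Module.Basis.map_repr]
  have hform : ∀ x y : ι → F, f x y = -2 * (b.repr x (0, 0) * b.repr y (0, 1) - b.repr x (0, 1) * b.repr y (0, 0)) +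
      2 * (b.repr x (1, 0) * b.repr y (1, 1) - b.repr x (1, 1) * b.repr y (1, 0)) := by
    intro x y
    obtain ⟨X, rfl⟩ := Φ.surjective x
    obtain ⟨Y, rfl⟩ := Φ.surjective y
    simp only [hΦ2, hbr, dotProduct, Fintype.sum_prod_type]
    simp only [Matrix.mulVec, dotProduct, Fintype.sum_prod_type, Fin.sum_univ_two, Matrix.kroneckerMap_apply, S2]
    simp
    ring
  have hself : ∀ p q, b.repr (b p) q = if p = q then 1 else 0 := by
    intro p q
    rw [b.repr_self, Finsupp.single_apply]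
  have hnd : ∀ i, ∀ x ∈ blk b i, x ≠ 0 → ∃ y ∈ blk b i, f x y ≠ 0 := by
    intro i x hx hx0
    by_contra hcon
    push Not at hcon
    apply hx0
    rw [blk_eq_sum b hx, Fin.sum_univ_two]
    have h3 := hcon _ (basis_mem_blk b i 0)
    have h4 := hcon _ (basis_mem_blk b i 1)
    rw [hform] at h3 h4
    fin_cases i
    · simp [h2] at h3 h4
      simp [h3, h4]
    · simp [h2] at h3 h4
      simp [h3, h4]
  refine ⟨blk b, ⟨blk_isMDecomposition b le_rfl two_pos, ?_, ?_⟩, ?_⟩
  · intro i x hx hx0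
    obtain ⟨y, hy, hxy⟩ := hnd i x hx hx0
    exact ⟨⟨y, hy, by rw [hf.skew]; exact neg_ne_zero.2 hxy⟩, ⟨y, hy, hxy⟩⟩
  · intro i j hij x hx y hy
    rw [hform]
    fin_cases i <;> fin_cases j
    · exact absurd rfl hij
    · rw [hx 1 (by decide), hx 1 (by decide), hy 0 (by decide), hy 0 (by decide)]; ring
    · rw [hx 0 (by decide), hx 0 (by decide), hy 1 (by decide), hy 1 (by decide)]; ring
    · exact absurd rfl hij
  · intro g hg hgiso
    -- enough: the two vectors of each block
    have b00 : b (0, 0) = u 0 + w 1 := hb _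
    have b01 : b (0, 1) = u 1 - w 0 := hb _
    have b10 : b (1, 0) = u 0 - w 1 := hb _
    have b11 : b (1, 1) = u 1 + w 0 := hb _
    have key : ∃ Δ : F, (Δ = 1 ∨ Δ = -1) ∧ ∃ α : Fin 4 → F × F,
        (g : Matrix ι ι F) *ᵥ (u 0 + w 1) = (α 0).1 • (u 0 + Δ • w 1) + (α 0).2 • (u 1 - Δ • w 0) ∧
        (g : Matrix ι ι F) *ᵥ (u 1 - w 0) = (α 1).1 • (u 0 + Δ • w 1) + (α 1).2 • (u 1 - Δ • w 0) ∧
        (g : Matrix ι ι F) *ᵥ (u 0 - w 1) = (α 2).1 • (u 0 - Δ • w 1) + (α 2).2 • (u 1 + Δ • w 0) ∧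
        (g : Matrix ι ι F) *ᵥ (u 1 + w 0) = (α 3).1 • (u 0 - Δ • w 1) + (α 3).2 • (u 1 + Δ • w 0) := by
      rw [mem_decompositionStabilizer] at hg
      obtain ⟨σ, hσ⟩ := hg
      have hgu : ∀ i, (g : Matrix ι ι F) *ᵥ (u i) ∈ D (σ 0) := fun i => by
        rw [← hσ 0]; exact ⟨u i, hu i, rfl⟩
      have hgw : ∀ i, (g : Matrix ι ι F) *ᵥ (w i) ∈ D (σ 1) := fun i => by
        rw [← hσ 1]; exact ⟨w i, hw i, rfl⟩
      have i00 := hgiso (u 0) (w 0)
      have i01 := hgiso (u 0) (w 1)
      have i10 := hgiso (u 1) (w 0)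
      have i11 := hgiso (u 1) (w 1)
      have hcases : (σ 0 = 0 ∧ σ 1 = 1) ∨ (σ 0 = 1 ∧ σ 1 = 0) := by
        have h3 : σ 0 ≠ σ 1 := fun h => absurd (σ.injective h) (by decide)
        revert h3
        generalize σ 0 = x
        generalize σ 1 = y
        revert x y
        decide
      have hDcase : ∀ Δ : F, Δ ≠ 0 → (Δ = 1 ∨ Δ = -1) := fun Δ hΔ => (three_field_cases hq Δ).resolve_left hΔ
      rcases hcases with ⟨s0, s1⟩ | ⟨s0, s1⟩
      · rw [s0] at hgu
        rw [s1] at hgw
        obtain ⟨a, b, g0⟩ : ∃ a b : F, (g : Matrix ι ι F) *ᵥ (u 0) = a • u 0 + b • u 1 := ⟨_, _, ex0 _ (hgu 0)⟩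
        obtain ⟨c, d, g1⟩ : ∃ a b : F, (g : Matrix ι ι F) *ᵥ (u 1) = a • u 0 + b • u 1 := ⟨_, _, ex0 _ (hgu 1)⟩
        obtain ⟨a', b', g0'⟩ : ∃ a b : F, (g : Matrix ι ι F) *ᵥ (w 0) = a • w 0 + b • w 1 := ⟨_, _, ex1 _ (hgw 0)⟩
        obtain ⟨c', d', g1'⟩ : ∃ a b : F, (g : Matrix ι ι F) *ᵥ (w 1) = a • w 0 + b • w 1 := ⟨_, _, ex1 _ (hgw 1)⟩
        rw [g0, g0', huw] at i00
        rw [g0, g1', huw] at i01
        rw [g1, g0', huw] at i10
        rw [g1, g1', huw] at i11
        simp [hf.bilinear.add_left, hf.bilinear.add_right, hf.bilinear.smul_left, hf.bilinear.smul_right, huw] at i00 i01 i10 i11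
        have j1 : (a * d - b * c) * a' = d := by linear_combination d * i00 - b * i10
        have j2 : (a * d - b * c) * b' = -c := by linear_combination a * i10 - c * i00
        have j3 : (a * d - b * c) * c' = -b := by linear_combination d * i01 - b * i11
        have j4 : (a * d - b * c) * d' = a := by linear_combination a * i11 - c * i01
        set Δ := a * d - b * c with hΔd
        have hΔ0 : Δ ≠ 0 := by
          intro h0
          rw [h0, zero_mul] at j3 j4
          have hb0 : b = 0 := by linear_combination j3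
          rw [← j4, hb0, zero_mul, zero_mul, add_zero] at i00
          exact zero_ne_one i00
        have hΔ2 : Δ * Δ = 1 := by
          rcases hDcase Δ hΔ0 with h | h <;> rw [h] <;> ring
        have l1 : a' = Δ * d := by linear_combination Δ * j1 - a' * hΔ2
        have l2 : b' = -(Δ * c) := by linear_combination Δ * j2 - b' * hΔ2
        have l3 : c' = -(Δ * b) := by linear_combination Δ * j3 - c' * hΔ2
        have l4 : d' = Δ * a := by linear_combination Δ * j4 - d' * hΔ2
        refine ⟨Δ, hDcase Δ hΔ0, ![(a, b), (c, d), (a, b), (c, d)], ?_, ?_, ?_, ?_⟩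
        · rw [Matrix.mulVec_add, g0, g1', l3, l4]
          simp only [Fin.isValue, Matrix.cons_val_zero]
          module
        · rw [Matrix.mulVec_sub, g1, g0', l1, l2]
          simp only [Fin.isValue, Matrix.cons_val_one, Matrix.cons_val_zero]
          module
        · rw [Matrix.mulVec_sub, g0, g1', l3, l4]
          simp only [Fin.isValue, Matrix.cons_val]
          module
        · rw [Matrix.mulVec_add, g1, g0', l1, l2]
          simp only [Fin.isValue, Matrix.cons_val]
          module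
      · rw [s0] at hgu
        rw [s1] at hgw
        obtain ⟨a, b, g0⟩ : ∃ a b : F, (g : Matrix ι ι F) *ᵥ (u 0) = a • w 0 + b • w 1 := ⟨_, _, ex1 _ (hgu 0)⟩
        obtain ⟨c, d, g1⟩ : ∃ a b : F, (g : Matrix ι ι F) *ᵥ (u 1) = a • w 0 + b • w 1 := ⟨_, _, ex1 _ (hgu 1)⟩
        obtain ⟨a', b', g0'⟩ : ∃ a b : F, (g : Matrix ι ι F) *ᵥ (w 0) = a • u 0 + b • u 1 := ⟨_, _, ex0 _ (hgw 0)⟩
        obtain ⟨c', d', g1'⟩ : ∃ a b : F, (g : Matrix ι ι F) *ᵥ (w 1) = a • u 0 + b • u 1 := ⟨_, _, ex0 _ (hgw 1)⟩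
        rw [g0, g0', huw] at i00
        rw [g0, g1', huw] at i01
        rw [g1, g0', huw] at i10
        rw [g1, g1', huw] at i11
        simp [hf.bilinear.add_left, hf.bilinear.add_right, hf.bilinear.smul_left, hf.bilinear.smul_right, hwu] at i00 i01 i10 i11
        have j1 : (a * d - b * c) * a' = -d := by linear_combination -d * i00 + b * i10
        have j2 : (a * d - b * c) * b' = c := by linear_combination -a * i10 + c * i00
        have j3 : (a * d - b * c) * c' = b := by linear_combination -d * i01 + b * i11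
        have j4 : (a * d - b * c) * d' = -a := by linear_combination -a * i11 + c * i01
        set Δ := a * d - b * c with hΔd
        have hΔ0 : Δ ≠ 0 := by
          intro h0
          rw [h0, zero_mul] at j3 j4
          have ha0 : a = 0 := by linear_combination j4
          rw [← j3, ha0, zero_mul, zero_mul] at i00
          exact one_ne_zero (α := F) (by linear_combination -i00)
        refine ⟨Δ, hDcase Δ hΔ0, ![(c', d'), (-a', -b'), (-c', -d'), (a', b')], ?_, ?_, ?_, ?_⟩
        · rw [Matrix.mulVec_add, g0, g1']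
          simp only [Fin.isValue, Matrix.cons_val_zero]
          have e1 : c' • (u 0 + Δ • w 1) + d' • (u 1 - Δ • w 0) = c' • u 0 + d' • u 1 + (Δ * c') • w 1 - (Δ * d') • w 0 := by module
          rw [e1, j3, j4]
          module
        · rw [Matrix.mulVec_sub, g1, g0']
          simp only [Fin.isValue, Matrix.cons_val_one, Matrix.cons_val_zero]
          have e1 : (-a') • (u 0 + Δ • w 1) + (-b') • (u 1 - Δ • w 0) = (-a') • u 0 + (-b') • u 1 - (Δ * a') • w 1 + (Δ * b') • w 0 := by module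
          rw [e1, j1, j2]
          module
        · rw [Matrix.mulVec_sub, g0, g1']
          simp only [Fin.isValue, Matrix.cons_val]
          have e1 : (-c') • (u 0 - Δ • w 1) + (-d') • (u 1 + Δ • w 0) = (-c') • u 0 + (-d') • u 1 + (Δ * c') • w 1 - (Δ * d') • w 0 := by module
          rw [e1, j3, j4]
          module
        · rw [Matrix.mulVec_add, g1, g0']
          simp only [Fin.isValue, Matrix.cons_val]
          have e1 : a' • (u 0 - Δ • w 1) + b' • (u 1 + Δ • w 0) = a' • u 0 + b' • u 1 - (Δ * a') • w 1 + (Δ * b') • w 0 := by module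
          rw [e1, j1, j2]
          module
    obtain ⟨Δ, hΔ, α, k0, k1, k2, k3⟩ := key
    have hmem0 : ∀ (x y : F), x • (u 0 + w 1) + y • (u 1 - w 0) ∈ blk b 0 := fun x y => by
      rw [← b00, ← b01]
      exact Submodule.add_mem _ (Submodule.smul_mem _ _ (basis_mem_blk b 0 0)) (Submodule.smul_mem _ _ (basis_mem_blk b 0 1))
    have hmem1 : ∀ (x y : F), x • (u 0 - w 1) + y • (u 1 + w 0) ∈ blk b 1 := fun x y => by
      rw [← b10, ← b11]
      exact Submodule.add_mem _ (Submodule.smul_mem _ _ (basis_mem_blk b 1 0)) (Submodule.smul_mem _ _ (basis_mem_blk b 1 1))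
    rcases hΔ with rfl | rfl
    · simp only [one_smul] at k0 k1 k2 k3
      refine mem_decStab_blk b g 1 ?_
      intro i a
      rw [Equiv.Perm.one_apply]
      fin_cases i <;> fin_cases a
      · show (g : Matrix ι ι F) *ᵥ b (0, 0) ∈ blk b 0
        rw [b00, k0]; exact hmem0 _ _
      · show (g : Matrix ι ι F) *ᵥ b (0, 1) ∈ blk b 0
        rw [b01, k1]; exact hmem0 _ _
      · show (g : Matrix ι ι F) *ᵥ b (1, 0) ∈ blk b 1
        rw [b10, k2]; exact hmem1 _ _
      · show (g : Matrix ι ι F) *ᵥ b (1, 1) ∈ blk b 1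
        rw [b11, k3]; exact hmem1 _ _
    · simp only [neg_smul, one_smul, sub_neg_eq_add, ← sub_eq_add_neg] at k0 k1 k2 k3
      refine mem_decStab_blk b g (Equiv.swap 0 1) ?_
      intro i a
      fin_cases i <;> fin_cases a
      · show (g : Matrix ι ι F) *ᵥ b (0, 0) ∈ blk b 1
        rw [b00, k0]; exact hmem1 _ _
      · show (g : Matrix ι ι F) *ᵥ b (0, 1) ∈ blk b 1
        rw [b01, k1]; exact hmem1 _ _
      · show (g : Matrix ι ι F) *ᵥ b (1, 0) ∈ blk b 0
        rw [b10, k2]; exact hmem0 _ _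
      · show (g : Matrix ι ι F) *ᵥ b (1, 1) ∈ blk b 0
        rw [b11, k3]; exact hmem0 _ _

end Cfsg.Agent.TwoGrp
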