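import Mathlib
import Cfsg.Agent.TwoGrp.UniK

set_option autoImplicit false
set_option linter.unusedSectionVars false

/-!
The normaliser of a unitary field of degree two in the symplectic group of dimension four over the field with three
elements normalises an extraspecial group: conclusion.
-/

namespace Cfsg.Agent.TwoGrp

open Module Cfsg.Geo Cfsg.Agent.Asch Cfsg.Agent.Asch.Sympl Cfsg.Agent.AschCases
open scoped Matrix MatrixGroups Kronecker

variable {ι : Type} [Fintype ι] [DecidableEq ι] {F : Type*} [Field F]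

theorem prop_of_pairing (h2 : (2 : F) ≠ 0) {A B : Matrix (Fin 2) (Fin 2) F} (hA : A.det ≠ 0)
    (h : Aᵀ * S2 F * B = Bᵀ * S2 F * A) : ∃ μ : F, B = μ • A := by
  rw [Matrix.det_fin_two] at hA
  have e00 := congrFun (congrFun h 0) 0
  have e11 := congrFun (congrFun h 1) 1
  have e01 := congrFun (congrFun h 0) 1
  simp only [S2, Matrix.mul_apply, Fin.sum_univ_two, Matrix.transpose_apply, Matrix.of_apply, Matrix.cons_val', Matrix.cons_val_zero,
    Matrix.cons_val_one, Matrix.cons_val_fin_one] at e00 e11 e01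
  have f0 : A 0 0 * B 1 0 = A 1 0 * B 0 0 := by
    have : (2 : F) * (A 0 0 * B 1 0 - A 1 0 * B 0 0) = 0 := by linear_combination e00
    exact sub_eq_zero.1 ((mul_eq_zero.1 this).resolve_left h2)
  have f1 : A 0 1 * B 1 1 = A 1 1 * B 0 1 := by
    have : (2 : F) * (A 0 1 * B 1 1 - A 1 1 * B 0 1) = 0 := by linear_combination e11
    exact sub_eq_zero.1 ((mul_eq_zero.1 this).resolve_left h2)
  refine ⟨(A 0 0 * B 1 1 - A 1 0 * B 0 1) / (A 0 0 * A 1 1 - A 0 1 * A 1 0), ?_⟩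
  ext i j
  rw [Matrix.smul_apply, smul_eq_mul, div_mul_eq_mul_div, eq_div_iff hA]
  fin_cases i <;> fin_cases j <;> simp only [Fin.zero_eta, Fin.mk_one, Fin.isValue]
  · linear_combination (A 0 1) * f0 - A 0 0 * e01
  · linear_combination (-(A 0 0)) * f1
  · linear_combination (A 1 1) * f0 - A 1 0 * e01
  · linear_combination (-(A 1 0)) * f1

/-- the complex structure -/
def J0 (F : Type*) [Field F] : Matrix (Fin 2) (Fin 2) F := !![0, -1; 1, 0]

/-- isometries commuting with the complex structure are tensors -/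
theorem tensor_of_comm (h2 : (2 : F) ≠ 0) {M : Matrix (Fin 2 × Fin 2) (Fin 2 × Fin 2) F}
    (hiso : Mᵀ * (S2 F ⊗ₖ (1 : Matrix (Fin 2) (Fin 2) F)) * M = S2 F ⊗ₖ (1 : Matrix (Fin 2) (Fin 2) F))
    (hcomm : M * ((1 : Matrix (Fin 2) (Fin 2) F) ⊗ₖ J0 F) = ((1 : Matrix (Fin 2) (Fin 2) F) ⊗ₖ J0 F) * M) :
    ∃ (A z : GL (Fin 2) F) (ν : F), ν ≠ 0 ∧
      (z : Matrix (Fin 2) (Fin 2) F)ᵀ * (z : Matrix (Fin 2) (Fin 2) F) = ν • (1 : Matrix (Fin 2) (Fin 2) F) ∧
      M = (A : Matrix (Fin 2) (Fin 2) F) ⊗ₖ (z : Matrix (Fin 2) (Fin 2) F) := by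
  set A : Matrix (Fin 2) (Fin 2) F := Matrix.of fun a c => M (a, 0) (c, 0) with hA
  set B : Matrix (Fin 2) (Fin 2) F := Matrix.of fun a c => M (a, 1) (c, 0) with hB
  have hM01 : ∀ a c, M (a, 0) (c, 1) = - B a c := by
    intro a c
    have := congrFun (congrFun hcomm (a, 0)) (c, 0)
    simp only [Matrix.mul_apply, Fintype.sum_prod_type, Fin.sum_univ_two, Matrix.kroneckerMap_apply, J0, Matrix.of_apply,
      Matrix.cons_val', Matrix.cons_val_zero, Matrix.cons_val_one, Matrix.cons_val_fin_one] at this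
    fin_cases a <;> fin_cases c <;> simp [Matrix.one_apply] at this <;> simp [hB, this]
  have hM11 : ∀ a c, M (a, 1) (c, 1) = A a c := by
    intro a c
    have := congrFun (congrFun hcomm (a, 1)) (c, 0)
    simp only [Matrix.mul_apply, Fintype.sum_prod_type, Fin.sum_univ_two, Matrix.kroneckerMap_apply, J0, Matrix.of_apply,
      Matrix.cons_val', Matrix.cons_val_zero, Matrix.cons_val_one, Matrix.cons_val_fin_one] at this
    fin_cases a <;> fin_cases c <;> simp [Matrix.one_apply] at this <;> simp [hA, this]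
  have hM00 : ∀ a c, M (a, 0) (c, 0) = A a c := fun a c => rfl
  have hM10 : ∀ a c, M (a, 1) (c, 0) = B a c := fun a c => rfl
  have hMAB : M = A ⊗ₖ (1 : Matrix (Fin 2) (Fin 2) F) + B ⊗ₖ J0 F := by
    ext ⟨a, b⟩ ⟨c, d⟩
    rw [Matrix.add_apply, Matrix.kroneckerMap_apply, Matrix.kroneckerMap_apply]
    fin_cases b <;> fin_cases d
    · simp [J0, hM00]
    · simp [J0, hM01]
    · simp [J0, hM10]
    · simp [J0, hM11]
  have hJT : (J0 F)ᵀ = - J0 F := by ext i j; fin_cases i <;> fin_cases j <;> simp [J0]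
  have hJJ : J0 F * J0 F = -1 := by ext i j; fin_cases i <;> fin_cases j <;> simp [J0]
  -- the two equations
  have hexp : (Aᵀ * S2 F * A + Bᵀ * S2 F * B) ⊗ₖ (1 : Matrix (Fin 2) (Fin 2) F) +
      (Aᵀ * S2 F * B - Bᵀ * S2 F * A) ⊗ₖ J0 F = S2 F ⊗ₖ (1 : Matrix (Fin 2) (Fin 2) F) := by
    rw [← hiso, hMAB]
    ext ⟨a, b⟩ ⟨c, d⟩
    simp only [Matrix.transpose_add, ← Matrix.kroneckerMap_transpose, add_mul, mul_add, ← Matrix.mul_kronecker_mul, hJT, Matrix.transpose_one,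
      one_mul, mul_one, neg_mul, hJJ, neg_neg]
    simp only [Matrix.add_apply, Matrix.sub_apply, Matrix.kroneckerMap_apply, Matrix.neg_apply]
    ring
  have heq1 : Aᵀ * S2 F * A + Bᵀ * S2 F * B = S2 F := by
    ext a c
    have := congrFun (congrFun hexp (a, 0)) (c, 0)
    simpa [Matrix.kroneckerMap_apply, J0] using this
  have heq2 : Aᵀ * S2 F * B = Bᵀ * S2 F * A := by
    ext a c
    have := congrFun (congrFun hexp (a, 1)) (c, 0)
    simp only [Matrix.add_apply, Matrix.kroneckerMap_apply, Matrix.sub_apply] at this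
    simp only [J0, Matrix.of_apply, Matrix.cons_val', Matrix.cons_val_zero, Matrix.cons_val_one, Matrix.cons_val_fin_one, ne_eq,
      one_ne_zero, not_false_eq_true, Matrix.one_apply_ne, mul_zero, mul_one, zero_add] at this
    exact sub_eq_zero.1 this
  have hdet : A.det + B.det = 1 := by
    have h1 := alt_det (A := A) (1 : F)
    have h3 := alt_det (A := B) (1 : F)
    have hS : S2 F = !![0, 1; -1, 0] := rfl
    rw [hS, h1, h3] at heq1
    have := congrFun (congrFun heq1 0) 1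
    simpa using this
  have build : ∀ (X : Matrix (Fin 2) (Fin 2) F) (α β : F), X.det ≠ 0 → α ^ 2 + β ^ 2 ≠ 0 →
      M = X ⊗ₖ (α • (1 : Matrix (Fin 2) (Fin 2) F) + β • J0 F) →
      ∃ (A z : GL (Fin 2) F) (ν : F), ν ≠ 0 ∧
      (z : Matrix (Fin 2) (Fin 2) F)ᵀ * (z : Matrix (Fin 2) (Fin 2) F) = ν • (1 : Matrix (Fin 2) (Fin 2) F) ∧
      M = (A : Matrix (Fin 2) (Fin 2) F) ⊗ₖ (z : Matrix (Fin 2) (Fin 2) F) := by
    intro X α β hX hαβ hMX
    refine ⟨Matrix.GeneralLinearGroup.mkOfDetNeZero X hX,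
      Matrix.GeneralLinearGroup.mkOfDetNeZero (α • (1 : Matrix (Fin 2) (Fin 2) F) + β • J0 F) ?_, α ^ 2 + β ^ 2, hαβ, ?_, hMX⟩
    · rw [Matrix.det_fin_two]
      simpa [J0, ← pow_two] using hαβ
    · show (α • (1 : Matrix (Fin 2) (Fin 2) F) + β • J0 F)ᵀ * (α • (1 : Matrix (Fin 2) (Fin 2) F) + β • J0 F) = _
      rw [Matrix.transpose_add, Matrix.transpose_smul, Matrix.transpose_smul, hJT, Matrix.transpose_one]
      simp only [add_mul, mul_add, Matrix.smul_mul, Matrix.mul_smul, one_mul, mul_one, neg_mul, hJJ, smul_neg, neg_neg, smul_smul]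
      rw [add_smul, pow_two, pow_two, mul_comm β α]
      abel
  by_cases hA0 : A.det = 0
  · have hB0 : B.det ≠ 0 := by
      rw [hA0, zero_add] at hdet
      rw [hdet]; exact one_ne_zero
    obtain ⟨μ, hμ⟩ := prop_of_pairing h2 hB0 heq2.symm
    refine build B μ 1 hB0 ?_ ?_
    · have : (μ ^ 2 + 1 ^ 2) * B.det = 1 := by
        rw [hμ, Matrix.det_smul, Fintype.card_fin] at hdet
        linear_combination hdet
      intro h0
      rw [h0, zero_mul] at this
      exact zero_ne_one this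
    · rw [hMAB, hμ, one_smul, Matrix.kronecker_add, Matrix.smul_kronecker, Matrix.kronecker_smul]
  · obtain ⟨μ, hμ⟩ := prop_of_pairing h2 hA0 heq2
    refine build A 1 μ hA0 ?_ ?_
    · have : (1 ^ 2 + μ ^ 2) * A.det = 1 := by
        rw [hμ, Matrix.det_smul, Fintype.card_fin] at hdet
        linear_combination hdet
      intro h0
      rw [h0, zero_mul] at this
      exact zero_ne_one this
    · rw [hMAB, hμ, one_smul, Matrix.kronecker_add, Matrix.smul_kronecker, Matrix.kronecker_smul]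

/-- **class 6 for the unitary field in dimension four, `q = 3`** -/
theorem uni_class6 [Fintype F] (hq : Fintype.card F = 3) (hc : Fintype.card ι = 4) {f : (ι → F) → (ι → F) → F}
    (hf : IsSymplecticForm f) {K : Subalgebra F (Matrix ι ι F)} (hK : IsFieldSubalgebra 2 K)
    (hadj : IsAdjointClosedFor f K) (hself : ¬ IsSelfAdjointFor f K) :
    ∃ R : Subgroup (GL ι F), IsSymplecticTypeGroup 2 R ∧ ActsAbsolutelyIrreducibly (matrixSet R) ∧ R ≤ similarityGroup f ∧
      Nat.card R = 32 ∧ Nat.card (Subgroup.center R) = 2 ∧ IsOfMinusType 2 R ∧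
      ∀ g ∈ subalgebraNormalizer K, (∀ u v, f ((g : Matrix ι ι F) *ᵥ u) ((g : Matrix ι ι F) *ᵥ v) = f u v) →
        g ∈ subgroupNormalizer R := by
  have h2 := three_field_two_ne hq
  have h3 := three_field_three (F := F) hq
  have : Nonempty ι := Fintype.card_pos_iff.1 (by omega)
  obtain ⟨i, hi, hia, hnorm⟩ := exists_uni_root hq hf hK hadj hself
  obtain ⟨Φ, hΦ1, hΦ2⟩ := exists_uni_basis hq hc hf hi hia
  set N := kron (Q8 h3) (D8 F) with hN
  have hE : EGrp N := (Q8_egrp h3 h2).kron (D8_egrp hq)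
  have hE' := hE.map Φ
  have hfix : FixesForm (matrixSet (N.map (trG Φ).toMonoidHom)) f := by
    rintro _ ⟨_, ⟨_, ⟨⟨x, y⟩, ⟨hx, hy⟩, rfl⟩, rfl⟩, rfl⟩
    intro u v
    refine isom_trG hΦ1 ?_ u v
    rw [kronHom_val, ← Matrix.kroneckerMap_transpose, ← Matrix.mul_kronecker_mul, ← Matrix.mul_kronecker_mul, mul_one]
    have e1 : (y : Matrix (Fin 2) (Fin 2) F)ᵀ * (y : Matrix (Fin 2) (Fin 2) F) = 1 := mem_D8.1 hy
    have e2 := alt_det (A := (x : Matrix (Fin 2) (Fin 2) F)) (1 : F)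
    rw [det_Q8 h3 hx, one_smul] at e2
    rw [e1]
    have hS : S2 F = !![0, 1; -1, 0] := rfl
    rw [hS, e2]
  have m1 : trG Φ (kronHom (q1, 1)) ∈ N.map (trG Φ).toMonoidHom := ⟨_, kronHom_mem (q1_mem h3) (D8 F).one_mem, rfl⟩
  have m2 : trG Φ (kronHom (q2 h3, 1)) ∈ N.map (trG Φ).toMonoidHom := ⟨_, kronHom_mem (q2_mem h3) (D8 F).one_mem, rfl⟩
  have hkone : (kronHom ((1 : GL (Fin 2) F), (1 : GL (Fin 2) F))) = 1 := map_one kronHom
  obtain ⟨c1, c2, c3, c4, c5, c6⟩ := hE'.class6 h2 hf hfix m1 m2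
    (by rw [← map_mul, ← map_mul, Prod.mk_mul_mk, q1_sq, mul_one, kronHom_neg_left, hkone, trG_neg, map_one])
    (by rw [← map_mul, ← map_mul, Prod.mk_mul_mk, q2_sq, mul_one, kronHom_neg_left, hkone, trG_neg, map_one])
    (by rw [← map_mul, ← map_mul, ← map_mul, ← map_mul, Prod.mk_mul_mk, Prod.mk_mul_mk, q12, kronHom_neg_left, trG_neg])
    (k := 2) (by rw [hc]; norm_num)
  refine ⟨N.map (trG Φ).toMonoidHom, c1, c2, c3, by rw [c4]; norm_num, c5, c6, ?_⟩
  intro g hg hgiso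
  -- coordinates
  set M := (trG Φ).symm g with hM
  have hgM : g = trG Φ M := ((trG Φ).apply_symm_apply g).symm
  have hgX : ∀ X, (g : Matrix ι ι F) *ᵥ (Φ X) = Φ ((M : Matrix _ _ F) *ᵥ X) := by
    intro X
    rw [hgM, trG_mulVec]
  have hiso := gram_of_isom hΦ1 hgiso hgX
  have hJ : ∀ X, ((1 : Matrix (Fin 2) (Fin 2) F) ⊗ₖ J0 F) *ᵥ X = Φ.symm (i *ᵥ Φ X) := by
    intro X
    rw [hΦ2, LinearEquiv.symm_apply_apply]
    rfl
  have hMJ : (M : Matrix _ _ F) * ((1 : Matrix (Fin 2) (Fin 2) F) ⊗ₖ J0 F) = ((1 : Matrix (Fin 2) (Fin 2) F) ⊗ₖ J0 F) * (M : Matrix _ _ F) ∨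
      (M : Matrix _ _ F) * ((1 : Matrix (Fin 2) (Fin 2) F) ⊗ₖ J0 F) = - (((1 : Matrix (Fin 2) (Fin 2) F) ⊗ₖ J0 F) * (M : Matrix _ _ F)) := by
    rcases hnorm g hg with h | h
    · left
      apply Matrix.ext_of_mulVec_single
      intro a
      rw [← Matrix.mulVec_mulVec, ← Matrix.mulVec_mulVec]
      apply Φ.injective
      rw [← hgX, hJ, hJ, LinearEquiv.apply_symm_apply, LinearEquiv.apply_symm_apply, Matrix.mulVec_mulVec, h, ← Matrix.mulVec_mulVec,
        hgX]
    · right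
      apply Matrix.ext_of_mulVec_single
      intro a
      rw [Matrix.neg_mulVec, ← Matrix.mulVec_mulVec, ← Matrix.mulVec_mulVec]
      apply Φ.injective
      rw [← hgX, map_neg, hJ, hJ, LinearEquiv.apply_symm_apply, LinearEquiv.apply_symm_apply, Matrix.mulVec_mulVec, h,
        Matrix.neg_mulVec, ← Matrix.mulVec_mulVec, hgX]
  have hfinish : ∀ M' : GL (Fin 2 × Fin 2) F, ((M' : Matrix _ _ F)ᵀ * (S2 F ⊗ₖ (1 : Matrix (Fin 2) (Fin 2) F)) * (M' : Matrix _ _ F) =
      S2 F ⊗ₖ (1 : Matrix (Fin 2) (Fin 2) F)) →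
      ((M' : Matrix _ _ F) * ((1 : Matrix (Fin 2) (Fin 2) F) ⊗ₖ J0 F) = ((1 : Matrix (Fin 2) (Fin 2) F) ⊗ₖ J0 F) * (M' : Matrix _ _ F)) → Nrm M' N := by
    intro M' e1 e2
    obtain ⟨A, z, ν, hν, hz, hAz⟩ := tensor_of_comm h2 e1 e2
    have : M' = kronHom (A, z) := Units.ext hAz
    rw [this]
    exact Nrm.kron (Nrm.Q8 hq h3 A) (Nrm.D8 hν hz)
  have hNrm : Nrm M N := by
    rcases hMJ with h | h
    · exact hfinish M hiso h
    · -- compose with the conjugation
      have hcc : (cGL : GL (Fin 2) F) * cGL = 1 := by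
        apply Units.ext
        rw [Units.val_mul, cGL_val, Units.val_one]
        ext i j
        fin_cases i <;> fin_cases j <;> simp
      have hcD : ((cGL : GL (Fin 2) F) : Matrix (Fin 2) (Fin 2) F)ᵀ * ((cGL : GL (Fin 2) F) : Matrix (Fin 2) (Fin 2) F) = 1 :=
        mem_D8.1 cGL_mem
      have hcJ : ((cGL : GL (Fin 2) F) : Matrix (Fin 2) (Fin 2) F) * J0 F = - (J0 F * ((cGL : GL (Fin 2) F) : Matrix (Fin 2) (Fin 2) F)) := by
        rw [cGL_val, J0]
        ext i j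
        fin_cases i <;> fin_cases j <;> simp
      have hsplit : M = (M * kronHom (1, cGL)) * kronHom (1, cGL) := by
        rw [mul_assoc, ← map_mul, Prod.mk_mul_mk, hcc, mul_one, hkone, mul_one]
      rw [hsplit]
      refine Nrm.mul (hfinish _ ?_ ?_) (Nrm.kron (Nrm.Q8 hq h3 1) (Nrm.D8 (ν := 1) one_ne_zero (by rw [hcD, one_smul])))
      · rw [Units.val_mul, Matrix.transpose_mul, kronHom_val, ← Matrix.kroneckerMap_transpose, Units.val_one, Matrix.transpose_one]
        calc _ = ((1 : Matrix (Fin 2) (Fin 2) F) ⊗ₖ ((cGL : GL (Fin 2) F) : Matrix (Fin 2) (Fin 2) F)ᵀ) *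
              ((M : Matrix _ _ F)ᵀ * (S2 F ⊗ₖ (1 : Matrix (Fin 2) (Fin 2) F)) * (M : Matrix _ _ F)) *
              ((1 : Matrix (Fin 2) (Fin 2) F) ⊗ₖ ((cGL : GL (Fin 2) F) : Matrix (Fin 2) (Fin 2) F)) := by simp only [mul_assoc]
          _ = _ := by
            rw [hiso, ← Matrix.mul_kronecker_mul, ← Matrix.mul_kronecker_mul, one_mul, mul_one, mul_one, hcD]
      · rw [Units.val_mul, kronHom_val, Units.val_one, mul_assoc, ← Matrix.mul_kronecker_mul, one_mul, hcJ]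
        have e : (1 : Matrix (Fin 2) (Fin 2) F) ⊗ₖ (-(J0 F * ((cGL : GL (Fin 2) F) : Matrix (Fin 2) (Fin 2) F))) =
            - (((1 : Matrix (Fin 2) (Fin 2) F) ⊗ₖ J0 F) * ((1 : Matrix (Fin 2) (Fin 2) F) ⊗ₖ ((cGL : GL (Fin 2) F) : Matrix (Fin 2) (Fin 2) F))) := by
          rw [← Matrix.mul_kronecker_mul, one_mul]
          ext p q
          simp [Matrix.kroneckerMap_apply]
        rw [e, mul_neg, ← mul_assoc, h, neg_mul, neg_neg, mul_assoc]
  rw [hgM]
  exact mem_normalizer_map hNrm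

end Cfsg.Agent.TwoGrp
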