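import Mathlib
import Cfsg.Agent.AschCases.SpMain
import Cfsg.Agent.AschCases.ArithSix
import Cfsg.Agent.TwoGrp.UniC6
import Cfsg.Agent.TwoGrp.TsPair

set_option autoImplicit false
set_option linter.unusedSectionVars false
set_option linter.unusedVariables false
set_option linter.style.haveILetI false
set_option linter.unnecessarySeqFocus false

/-!
The list of maximal subgroups of Sp_4 in odd characteristic from the structure theorem.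
-/

namespace Cfsg.Agent.TwoGrp

open scoped Matrix
open Cfsg.Geo Cfsg.Agent.AschCases

theorem sp_cases_2o {F : Type*} [Field F] [Fintype F] (hodd : Odd (Fintype.card F)) (H : Subgroup (Matrix.GeneralLinearGroup (Fin 2 ⊕ Fin 2) F)) (hH : Cfsg.Geo.IsMaximalIn (Cfsg.spGL 2 F) H)
    (hstr : (∃ M, Asch.SpMember (Cfsg.sympForm 2 F) M ∧ H ≤ M) ∨ InSymplecticResidualClass H) :
    (∃ W : Submodule F (Fin 2 ⊕ Fin 2 → F), W ≠ ⊥ ∧ Cfsg.Geo.IsTotallySingularFor (Cfsg.sympForm 2 F) W ∧ H = Cfsg.Geo.subspaceStabilizer W ⊓ Cfsg.spGL 2 F) ∨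
    (∃ D : Fin 2 → Submodule F (Fin 2 ⊕ Fin 2 → F), Cfsg.Geo.IsNondegenerateMDecomposition (Cfsg.sympForm 2 F) 2 D ∧ H = Cfsg.Geo.decompositionStabilizer D ⊓ Cfsg.spGL 2 F) ∨
    (5 ≤ Fintype.card F ∧ ∃ D : Fin 2 → Submodule F (Fin 2 ⊕ Fin 2 → F), Cfsg.Geo.IsMDecomposition 2 D ∧ (∀ i, Cfsg.Geo.IsTotallySingularFor (Cfsg.sympForm 2 F) (D i)) ∧ H = Cfsg.Geo.decompositionStabilizer D ⊓ Cfsg.spGL 2 F) ∨
    (∃ K : Subalgebra F (Matrix (Fin 2 ⊕ Fin 2) (Fin 2 ⊕ Fin 2) F), Cfsg.Geo.IsFieldSubalgebra 2 K ∧ Cfsg.Geo.IsSelfAdjointFor (Cfsg.sympForm 2 F) K ∧ (∀ k ∈ K, ∀ v : (Fin 2 ⊕ Fin 2 → F), (Cfsg.sympForm 2 F) (Matrix.mulVec k v) v = 0) ∧ H = Cfsg.Geo.subalgebraNormalizer K ⊓ Cfsg.spGL 2 F) ∨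
    (5 ≤ Fintype.card F ∧ ∃ K : Subalgebra F (Matrix (Fin 2 ⊕ Fin 2) (Fin 2 ⊕ Fin 2) F), Cfsg.Geo.IsFieldSubalgebra 2 K ∧ Cfsg.Geo.IsAdjointClosedFor (Cfsg.sympForm 2 F) K ∧ ¬ Cfsg.Geo.IsSelfAdjointFor (Cfsg.sympForm 2 F) K ∧ H = Cfsg.Geo.subalgebraNormalizer K ⊓ Cfsg.spGL 2 F) ∨
    (∃ (F₀ : Subfield F) (r : ℕ) (P : Matrix.GeneralLinearGroup (Fin 2 ⊕ Fin 2) F) (ζ : F), r.Prime ∧ Fintype.card F = Nat.card F₀ ^ r ∧ ζ ≠ 0 ∧ Cfsg.Geo.IsFormRationalStructure (Cfsg.sympForm 2 F) F₀ ζ P ∧ H = Cfsg.Geo.subfieldSubgroup F₀ P ⊓ Cfsg.spGL 2 F) ∨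
    (∃ (p : ℕ) (R : Subgroup (Matrix.GeneralLinearGroup (Fin 2 ⊕ Fin 2) F)), p.Prime ∧ Fintype.card F = p ∧ Cfsg.Geo.IsSymplecticTypeGroup 2 R ∧ Cfsg.Geo.ActsAbsolutelyIrreducibly (Cfsg.Geo.matrixSet R) ∧ R ≤ Cfsg.Geo.similarityGroup (Cfsg.sympForm 2 F) ∧ Nat.card R = 32 ∧ Nat.card (Subgroup.center R) = 2 ∧ Cfsg.Geo.IsOfMinusType 2 R ∧ H = Cfsg.Geo.subgroupNormalizer R ⊓ Cfsg.spGL 2 F) ∨
    Cfsg.Geo.InSymplecticResidualClass H := by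
  have hs := GeoMax.Symp.std 2 F
  have hc : Fintype.card (Fin 2 ⊕ Fin 2) = 4 := by simp
  haveI : Nonempty (Fin 2 ⊕ Fin 2) := ⟨Sum.inl 0⟩
  have hq1 : 1 < Fintype.card F := Fintype.one_lt_card
  have hq5 : ¬ Fintype.card F = 3 → 5 ≤ Fintype.card F := by
    obtain ⟨j, hj⟩ := hodd
    omega
  rcases sp_maximal (by norm_num) hH hstr with ⟨M, hM, hE⟩ | hres
  swap
  · exact Or.inr (Or.inr (Or.inr (Or.inr (Or.inr (Or.inr (Or.inr (hres)))))))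
  rcases hM with ⟨W, h1, h2, rfl⟩ | ⟨W, h1, h2, h3, rfl⟩ | ⟨t, k, D, h1, rfl⟩ | ⟨k, D, h1, h2, h3, rfl⟩ |
    ⟨r, K, h1, h2, h3, h4, rfl⟩ | ⟨K, h1, h2, h3, h4, rfl⟩ | ⟨n₁, n₂, e, P, f₁, f₂, h1, h2, h3, h4, h5, rfl⟩ |
    ⟨F₀, r, P, ζ, h1, h2, h3, h4, rfl⟩ | ⟨R, p, k, h1, h2, h3, h4, h5, h6, h7, h8, h9, h10, rfl⟩ |
    ⟨k, t, e, P, f₁, h1, h2, h3, h4, h5, h6, rfl⟩ | ⟨Q, h1, h2, h3, rfl⟩
  · exact Or.inl (⟨W, h1, h2, hE⟩)
  · exfalso
    have e1 := even_finrank_nondeg hs h2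
    have e2 : Module.finrank F W ≠ 0 := fun h => h1 (Submodule.finrank_eq_zero.1 h)
    obtain ⟨j, hj⟩ := e1
    omega
  · have ht := h1.decomp.two_le
    have e1 := even_finrank_nondeg hs (h1.nondegenerate ⟨0, by omega⟩)
    rw [h1.decomp.finrank_eq] at e1
    have e2 := card_eq_of_decomp h1.decomp
    rw [hc] at e2
    have e3 := h1.decomp.pos
    obtain ⟨j, hj⟩ := e1
    have e4 : k ≤ 2 := by nlinarith
    have hcs : (t = 2 ∧ k = 2) := by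
      interval_cases k <;> omega
    obtain ⟨rfl, rfl⟩ := hcs
    exact Or.inr (Or.inl (⟨D, h1, hE⟩))
  · have e2 := card_eq_of_decomp h2
    rw [hc] at e2
    obtain rfl : k = 2 := by omega
    by_cases hq3 : Fintype.card F = 3
    · obtain ⟨D', hD', hle⟩ := ts_pair_three hq3 hc hs h2 h3
      have hle2 : H ≤ decompositionStabilizer D' := by
        rw [hE]; exact fun g hg => hle g hg.1 ((mem_spGL_iff g).1 hg.2)
      have hE2 := eq_inf_of_maximal hH hle2 ((sp_geom 2 F).not_le_decompositionStabilizer (by norm_num) D' hD'.decomp)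
      exact Or.inr (Or.inl (⟨D', hD', hE2⟩))
    · exact Or.inr (Or.inr (Or.inl (⟨hq5 hq3, D, h2, h3, hE⟩)))
  · have hrm : r ∣ 2 := dvd_half hs h2 h3 h4 (by rw [hc])
    have hrle : r ≤ 2 := Nat.le_of_dvd (by norm_num) hrm
    have hr2 := h1.two_le
    have hcs : r = 2 := by omega
    rcases hcs with rfl
    · exact Or.inr (Or.inr (Or.inr (Or.inl (⟨K, h2, h3, h4, hE⟩))))
  · by_cases hq3 : Fintype.card F = 3
    · obtain ⟨R, r1, r2, r3, r4, r5, r6, r7⟩ := uni_class6 hq3 hc hs h2 h3 h4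
      have hle2 : H ≤ subgroupNormalizer R := by
        rw [hE]; exact fun g hg => r7 g hg.1 ((mem_spGL_iff g).1 hg.2)
      have hE2 := eq_inf_of_maximal hH hle2 (spMember_not_le (by norm_num) (m := 2)
        (Or.inr (Or.inr (Or.inr (Or.inr (Or.inr (Or.inr (Or.inr (Or.inr (Or.inl
          ⟨R, 3, 2, r1, r2, r3, Nat.prime_three, by decide, hq3, by rw [r4]; norm_num, r5, r6, by rw [hc]; norm_num, rfl⟩))))))))))
      exact Or.inr (Or.inr (Or.inr (Or.inr (Or.inr (Or.inr (Or.inl (⟨3, R, Nat.prime_three, hq3, r1, r2, r3, r4, r5, r6, hE2⟩)))))))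
    · exact Or.inr (Or.inr (Or.inr (Or.inr (Or.inl (⟨hq5 hq3, K, h2, h3, h4, hE⟩)))))
  · exfalso
    have e1 := Asch.even_card_of_isSymplecticForm h3
    rw [Fintype.card_fin] at e1
    have e2 : Fintype.card (Fin 2 ⊕ Fin 2) = n₁ * n₂ := by simpa using Fintype.card_congr e
    rw [hc] at e2
    obtain ⟨j, hj⟩ := e1
    have e4 : n₁ ≤ 1 := by nlinarith
    have : n₁ = 0 := by omega
    rw [this, zero_mul] at e2
    omega
  · exact Or.inr (Or.inr (Or.inr (Or.inr (Or.inr (Or.inl (⟨F₀, r, P, ζ, h1, h2, h3, h4, hE⟩))))))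
  · have hk : k = 2 := by
      rw [hc] at h10
      have : (2:ℕ) ^ 2 = 2 ^ k := by rw [← h10]; norm_num
      exact (Nat.pow_right_injective le_rfl this).symm
    subst hk
    exact Or.inr (Or.inr (Or.inr (Or.inr (Or.inr (Or.inr (Or.inl (⟨p, R, h4, h6, h1, h2, h3, h7, h8, h9, hE⟩)))))))
  · exfalso
    have e1 := Asch.even_card_of_isSymplecticForm h5
    rw [Fintype.card_fin] at e1
    have e2 : Fintype.card (Fin 2 ⊕ Fin 2) = k ^ t := by simpa using Fintype.card_congr e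
    rw [hc] at e2
    have hk0 : k ≠ 0 := by
      rintro rfl
      rw [zero_pow (by omega)] at e2
      omega
    obtain ⟨j, hj⟩ := e1
    have hk2 : 2 ≤ k := by omega
    have e5 : 2 ^ 3 ≤ k ^ t := (Nat.pow_le_pow_left (by omega) 3).trans (Nat.pow_le_pow_right (by omega) h3)
    omega
  · exact absurd hodd h1

end Cfsg.Agent.TwoGrp
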